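import Mathlib
import Cfsg.Agent.Classical.UBasic

/-!
An extension of odd prime degree of a field of square order: conjugation, trace, norm.
-/

set_option autoImplicit false
set_option linter.style.haveILetI false
set_option linter.unusedSectionVars false

namespace Cfsg.Agent.MaxSub.UnitExt

open Module Cfsg.Agent.Classical.U

universe u v

variable {F : Type u} {K : Type v} [Field F] [Field K] [Algebra F K] {q r : ℕ}

/-- The hypotheses on the two fields. -/
structure FD (F : Type u) (K : Type v) [Field F] [Field K] [Algebra F K] (q r : ℕ) : Prop where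
  hF : SqField F q
  rk : finrank F K = r
  prime : r.Prime
  odd : Odd r

namespace FD

variable (D : FD F K q r)
include D

lemma three_le : 3 ≤ r := by
  have h2 := D.prime.two_le
  obtain ⟨j, hj⟩ := D.odd
  omega

lemma finite_F : Finite F := D.hF.1

lemma fd : FiniteDimensional F K := Module.finite_of_finrank_pos (by rw [D.rk]; exact D.prime.pos)

lemma finite_K : Finite K := by
  haveI := D.fd
  haveI := D.finite_F
  exact Module.finite_of_finite F

lemma sqK : SqField K (q ^ r) := by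
  haveI := D.fd
  haveI := D.finite_F
  refine ⟨D.finite_K, ?_⟩
  rw [Module.natCard_eq_pow_finrank (K := F), D.hF.2, D.rk, ← pow_mul, ← pow_mul, mul_comm]

lemma algebraMap_pow (t : F) : algebraMap F K t ^ q ^ r = algebraMap F K (t ^ q) := by
  obtain ⟨j, hj⟩ := D.odd
  rw [← map_pow, hj]
  congr 1
  clear hj
  induction j with
  | zero => simp
  | succ j ih =>
    rw [show 2 * (j + 1) + 1 = (2 * j + 1) + 1 + 1 by ring, pow_succ q, pow_succ q, pow_mul, pow_mul,
      ih]
    exact D.hF.pow_pow _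

lemma trace_pow (x : K) : Algebra.trace F K (x ^ q ^ r) = Algebra.trace F K x ^ q := by
  haveI := D.finite_K
  apply (algebraMap F K).injective
  rw [← D.algebraMap_pow, FiniteField.algebraMap_trace_eq_sum_pow,
    FiniteField.algebraMap_trace_eq_sum_pow, D.sqK.sum_pow]
  exact Finset.sum_congr rfl fun i _ => by rw [← pow_mul, ← pow_mul, mul_comm]

lemma norm_pow (x : K) : Algebra.norm F (x ^ q ^ r) = Algebra.norm F x ^ q := by
  rw [map_pow]
  apply (algebraMap F K).injective
  rw [map_pow, D.algebraMap_pow]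

lemma trace_smul (t : F) (x : K) :
    Algebra.trace F K (algebraMap F K t * x) = t * Algebra.trace F K x := by
  rw [← Algebra.smul_def, map_smul, smul_eq_mul]

lemma exists_not_fixed : ∃ t : F, t ^ q ≠ t := by
  obtain ⟨d, hd0, hd⟩ := D.hF.exists_skew
  by_contra hc
  push Not at hc
  obtain ⟨x, hx⟩ := D.hF.exists_trace (c := (1 : F)) (one_pow q)
  rw [hc] at hx
  have : d = 0 := by
    have h2 : d + d = 0 := by
      rw [hc] at hd
      linear_combination hd
    have e : d * (x + x) = d := by rw [hx, mul_one]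
    linear_combination x * h2 - e
  exact hd0 this

lemma decomp (x : K) : ∃ a b : K, ∃ t : F, t ^ q ≠ t ∧ a ^ q ^ r = a ∧ b ^ q ^ r = b ∧
    x = a + algebraMap F K t * b := by
  obtain ⟨t, ht⟩ := D.exists_not_fixed
  have hne : algebraMap F K t - algebraMap F K (t ^ q) ≠ 0 := fun e =>
    ht ((algebraMap F K).injective (sub_eq_zero.1 e)).symm
  obtain ⟨b, hb⟩ : ∃ b, b = (x - x ^ q ^ r) / (algebraMap F K t - algebraMap F K (t ^ q)) :=
    ⟨_, rfl⟩
  have hbf : b ^ q ^ r = b := by
    rw [hb, div_pow, D.sqK.sub_pow, D.sqK.sub_pow, D.sqK.pow_pow, D.algebraMap_pow, D.algebraMap_pow,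
      D.hF.pow_pow, ← neg_sub x, ← neg_sub (algebraMap F K t) (algebraMap F K (t ^ q)),
      neg_div_neg_eq]
  have hb' : b * (algebraMap F K t - algebraMap F K (t ^ q)) = x - x ^ q ^ r := by
    rw [hb, div_mul_cancel₀ _ hne]
  refine ⟨x - algebraMap F K t * b, b, t, ht, ?_, hbf, by ring⟩
  rw [D.sqK.sub_pow, mul_pow, hbf, D.algebraMap_pow]
  linear_combination hb'

lemma decomp' {t : F} (ht : t ^ q ≠ t) {a b : K} (ha : a ^ q ^ r = a) (hb : b ^ q ^ r = b)
    (h : a + algebraMap F K t * b = 0) : a = 0 ∧ b = 0 := by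
  have h' := congrArg (· ^ q ^ r) h
  simp only [D.sqK.add_pow, mul_pow, ha, hb, D.algebraMap_pow] at h'
  rw [zero_pow D.sqK.q_ne_zero] at h'
  have hb0 : (algebraMap F K t - algebraMap F K (t ^ q)) * b = 0 := by linear_combination h - h'
  have hb0' : b = 0 := (mul_eq_zero.1 hb0).resolve_left fun e =>
    ht ((algebraMap F K).injective (sub_eq_zero.1 e)).symm
  exact ⟨by simpa [hb0'] using h, hb0'⟩

lemma exists_trace_ne {a : K} (ha : a ≠ 0) : ∃ c, Algebra.trace F K (c * a) ≠ 0 := by
  haveI := D.fd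
  haveI := D.finite_F
  haveI := D.finite_K
  by_contra hc
  push Not at hc
  exact Algebra.trace_ne_zero F K (LinearMap.ext fun c => by
    have := hc (c / a)
    rwa [div_mul_cancel₀ _ ha] at this)

lemma ext_trace {x y : K} (h : ∀ k, Algebra.trace F K (k * x) = Algebra.trace F K (k * y)) :
    x = y := by
  by_contra hne
  obtain ⟨c, hc⟩ := D.exists_trace_ne (sub_ne_zero.2 hne)
  exact hc (by rw [mul_sub, map_sub, h, sub_self])

lemma exists_skew_trace_ne {a : K} (ha : a ≠ 0) :
    ∃ c : K, c ^ q ^ r = -c ∧ Algebra.trace F K (c * a) ≠ 0 := by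
  by_contra hc
  push Not at hc
  obtain ⟨ζ, hζ0, hζ⟩ := D.hF.exists_skew
  obtain ⟨x, hx⟩ := D.exists_trace_ne ha
  have hfix : ∀ s : K, s ^ q ^ r = s → Algebra.trace F K (s * a) = 0 := fun s hs => by
    have := hc (algebraMap F K ζ * s) (by rw [mul_pow, hs, D.algebraMap_pow, hζ, map_neg, neg_mul])
    rw [mul_assoc, D.trace_smul] at this
    exact (mul_eq_zero.1 this).resolve_left hζ0
  obtain ⟨b, c, t, -, hb, hc', rfl⟩ := D.decomp x
  apply hx
  rw [add_mul, map_add, hfix b hb, mul_assoc, D.trace_smul, hfix c hc', mul_zero, add_zero]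

lemma fixed_in_F {μ : K} (h : μ ^ 2 ∈ Set.range (algebraMap F K)) :
    μ ∈ Set.range (algebraMap F K) := by
  haveI := D.fd
  haveI := Subalgebra.isSimpleOrder_of_finrank_prime F K (D.rk ▸ D.prime)
  rcases eq_bot_or_eq_top (Algebra.adjoin F ({μ} : Set K)) with hb | ht
  · have : μ ∈ Algebra.adjoin F ({μ} : Set K) := Algebra.self_mem_adjoin_singleton F μ
    rw [hb, Algebra.mem_bot] at this
    exact this
  · obtain ⟨f, hf⟩ := h
    let S : Subalgebra F K :=
      { carrier := {x | ∃ a b : F, x = algebraMap F K a + algebraMap F K b * μ}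
        mul_mem' := by
          rintro _ _ ⟨a, b, rfl⟩ ⟨c, d, rfl⟩
          refine ⟨a * c + b * d * f, a * d + b * c, ?_⟩
          simp only [map_add, map_mul]
          linear_combination (-(algebraMap F K b * algebraMap F K d)) * hf
        one_mem' := ⟨1, 0, by simp⟩
        add_mem' := by
          rintro _ _ ⟨a, b, rfl⟩ ⟨c, d, rfl⟩
          exact ⟨a + c, b + d, by simp only [map_add]; ring⟩
        zero_mem' := ⟨0, 0, by simp⟩
        algebraMap_mem' := fun a => ⟨a, 0, by simp⟩ }
    have hle : Algebra.adjoin F ({μ} : Set K) ≤ S :=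
      Algebra.adjoin_le (Set.singleton_subset_iff.2 ⟨0, 1, by simp⟩)
    rw [ht] at hle
    have h2 : finrank F K ≤ 2 := by
      let φ : (Fin 2 → F) →ₗ[F] K := Fintype.linearCombination F ![1, μ]
      have hs : Function.Surjective φ := fun x => by
        obtain ⟨a, b, hab⟩ : x ∈ S := hle Algebra.mem_top
        exact ⟨![a, b], by simp [φ, Fintype.linearCombination_apply, hab, Algebra.smul_def]⟩
      have := LinearMap.finrank_range_le φ
      rw [LinearMap.range_eq_top.2 hs, finrank_top] at this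
      simpa using this
    have := D.three_le
    have := D.rk
    omega

/-- A unit of norm one outside `F` whose conjugate is its inverse. -/
lemma exists_circle (h : ¬ (q = 2 ∧ r = 3)) : ∃ μ : K, μ * μ ^ q ^ r = 1 ∧ Algebra.norm F μ = 1 ∧
    μ ∉ Set.range (algebraMap F K) := by
  haveI := D.finite_K
  haveI := D.finite_F
  haveI := D.fd
  obtain ⟨g, hg⟩ := IsCyclic.exists_ofOrder_eq_natCard (α := Kˣ)
  rw [Nat.card_units, D.sqK.2] at hg
  have hq := D.hF.one_lt
  have hr3 := D.three_le
  obtain ⟨Q, hQdef⟩ : ∃ Q, Q = q ^ r := ⟨_, rfl⟩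
  rw [← hQdef] at hg ⊢
  obtain ⟨a, ha⟩ : q - 1 ∣ Q - 1 := by
    rw [hQdef]; simpa using Nat.sub_dvd_pow_sub_pow q 1 r
  have hQq : q ^ 3 ≤ Q := hQdef ▸ Nat.pow_le_pow_right (by omega) hr3
  have hq2 : 2 * q ≤ q ^ 2 := by rw [sq]; exact Nat.mul_le_mul_right q hq
  have hq3 : q ^ 2 ≤ q ^ 3 := Nat.pow_le_pow_right (by omega) (by omega)
  obtain ⟨e, he⟩ : ∃ e, e = (Q - 1) * (q + 1) := ⟨_, rfl⟩
  have hne : Q ^ 2 - 1 = (Q - 1) * (Q + 1) := by
    rw [mul_comm, ← Nat.sq_sub_sq, one_pow]
  refine ⟨((g ^ e : Kˣ) : K), ?_, ?_, ?_⟩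
  · rw [← pow_succ', ← Units.val_pow_eq_pow_val, ← pow_mul,
      orderOf_dvd_iff_pow_eq_one.1 (show orderOf g ∣ e * (Q + 1) from
        ⟨q + 1, by rw [hg, hne, he]; ring⟩), Units.val_one]
  · apply (algebraMap F K).injective
    rw [FiniteField.algebraMap_norm_eq_pow_sum, D.rk, D.hF.2, map_one, ← Units.val_pow_eq_pow_val,
      ← pow_mul]
    have hdvd : orderOf g ∣ e * ∑ i ∈ Finset.range r, (q ^ 2) ^ i := by
      have hgeom : (∑ i ∈ Finset.range r, (q ^ 2) ^ i) * ((q - 1) * (q + 1)) = Q ^ 2 - 1 := by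
        have e0 : (q - 1) * (q + 1) = q ^ 2 - 1 := by rw [mul_comm, ← Nat.sq_sub_sq, one_pow]
        rw [e0, geom_sum_mul_of_one_le (by omega), hQdef, ← pow_mul, ← pow_mul, mul_comm]
      refine ⟨a, ?_⟩
      rw [hg, ← hgeom, he, ha]
      ring
    rw [orderOf_dvd_iff_pow_eq_one.1 hdvd, Units.val_one]
  · rintro ⟨t, ht⟩
    have hnorm : t ^ r = 1 := by
      apply (algebraMap F K).injective
      have h1 : Algebra.norm F ((g ^ e : Kˣ) : K) = 1 := by
        apply (algebraMap F K).injective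
        rw [FiniteField.algebraMap_norm_eq_pow_sum, D.rk, D.hF.2, map_one, ← Units.val_pow_eq_pow_val,
          ← pow_mul]
        have hdvd : orderOf g ∣ e * ∑ i ∈ Finset.range r, (q ^ 2) ^ i := by
          have e0 : (q - 1) * (q + 1) = q ^ 2 - 1 := by rw [mul_comm, ← Nat.sq_sub_sq, one_pow]
          have hgeom : (∑ i ∈ Finset.range r, (q ^ 2) ^ i) * ((q - 1) * (q + 1)) = Q ^ 2 - 1 := by
            rw [e0, geom_sum_mul_of_one_le (by omega), hQdef, ← pow_mul, ← pow_mul, mul_comm]
          refine ⟨a, ?_⟩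
          rw [hg, ← hgeom, he, ha]
          ring
        rw [orderOf_dvd_iff_pow_eq_one.1 hdvd, Units.val_one]
      rw [← ht, Algebra.norm_algebraMap, D.rk] at h1
      rw [h1]
    have h2 : g ^ (e * r) = 1 := Units.ext (by
      rw [pow_mul, Units.val_pow_eq_pow_val, ← ht, ← map_pow, hnorm, map_one, Units.val_one])
    have h3 := orderOf_dvd_iff_pow_eq_one.2 h2
    rw [hg, hne, he, mul_assoc] at h3
    have h4 : Q + 1 ∣ (q + 1) * r := Nat.dvd_of_mul_dvd_mul_left (by omega) h3
    have h5 := Nat.le_of_dvd (by positivity) h4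
    subst hQdef
    -- growth
    have hgrow : ∀ j, 3 ≤ j → ¬ (q = 2 ∧ j = 3) → (q + 1) * j < q ^ j + 1 := by
      intro j hj hne'
      by_cases hq2' : q = 2
      · subst hq2'
        obtain ⟨i, rfl⟩ : ∃ i, j = i + 4 := ⟨j - 4, by omega⟩
        clear hne' hj
        induction i with
        | zero => norm_num
        | succ i ih =>
          rw [show i + 1 + 4 = (i + 4) + 1 by ring, pow_succ]
          have : 2 ^ 4 ≤ 2 ^ (i + 4) := Nat.pow_le_pow_right (by norm_num) (by omega)
          omega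
      · obtain ⟨i, rfl⟩ : ∃ i, j = i + 3 := ⟨j - 3, by omega⟩
        clear hne' hj
        have h9 : 9 * q ≤ q ^ 3 := by
          rw [pow_succ, sq]
          exact Nat.mul_le_mul_right q (Nat.mul_le_mul (by omega : 3 ≤ q) (by omega : 3 ≤ q))
        induction i with
        | zero => simp only [zero_add]; omega
        | succ i ih =>
          rw [show i + 1 + 3 = (i + 3) + 1 by ring, pow_succ, mul_comm (q ^ (i + 3))]
          have h10 : q ^ 3 ≤ q ^ (i + 3) := Nat.pow_le_pow_right (by omega) (by omega)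
          have h11 : 3 * q ^ (i + 3) ≤ q * q ^ (i + 3) := Nat.mul_le_mul_right _ (by omega)
          have h12 : (q + 1) * (i + 3 + 1) = (q + 1) * (i + 3) + (q + 1) := by ring
          omega
    have := hgrow r hr3 h
    omega

/-- An element off the products of `F` with the fixed field. -/
def Mix (l : K) (q r : ℕ) : Prop := ∀ (t : F) (s : K), s ^ q ^ r = s → l ≠ algebraMap F K t * s

lemma circle_mix {μ : K} (h1 : μ * μ ^ q ^ r = 1) (h2 : μ ∉ Set.range (algebraMap F K)) :
    ∀ (t : F) (s : K), s ^ q ^ r = s → μ ≠ algebraMap F K t * s := by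
  intro t s hs he
  subst he
  rw [mul_pow, hs, D.algebraMap_pow] at h1
  have ht : t * t ^ q ≠ 0 := fun e => by
    have : algebraMap F K (t * t ^ q) * (s * s) = 1 := by rw [map_mul]; linear_combination h1
    rw [e, map_zero, zero_mul] at this
    exact zero_ne_one this
  obtain ⟨u, hu⟩ := D.fixed_in_F (μ := s) ⟨(t * t ^ q)⁻¹, by
    rw [map_inv₀, inv_eq_of_mul_eq_one_right (b := s ^ 2)]
    rw [map_mul]; linear_combination h1⟩
  exact h2 ⟨t * u, by rw [map_mul, hu]⟩

lemma exists_mix : ∃ l : K, l ≠ 0 ∧ ∀ (t : F) (s : K), s ^ q ^ r = s → l ≠ algebraMap F K t * s := by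
  classical
  haveI := D.finite_K
  haveI := D.finite_F
  haveI := Fintype.ofFinite K
  haveI := Fintype.ofFinite F
  by_contra hc
  push Not at hc
  let S := {s : K // s ^ q ^ r = s}
  have hsurj : Function.Surjective (fun x : F × S => algebraMap F K x.1 * x.2.1) := by
    intro l
    by_cases hl : l = 0
    · exact ⟨(0, ⟨0, zero_pow D.sqK.q_ne_zero⟩), by simp [hl]⟩
    · obtain ⟨t, s, hs, he⟩ := hc l hl
      exact ⟨(t, ⟨s, hs⟩), he.symm⟩
  have h1 := Nat.card_le_card_of_surjective _ hsurj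
  rw [Nat.card_prod, D.hF.2, D.sqK.2] at h1
  have hS : Nat.card S ≤ q ^ r := by
    have hne : (Polynomial.X ^ q ^ r - Polynomial.X : Polynomial K) ≠ 0 :=
      FiniteField.X_pow_card_sub_X_ne_zero K D.sqK.one_lt
    have hsub : Finset.univ.filter (fun s : K => s ^ q ^ r = s) ⊆
        (Polynomial.X ^ q ^ r - Polynomial.X : Polynomial K).roots.toFinset := fun s hs => by
      simp [hne, sub_eq_zero, (Finset.mem_filter.1 hs).2]
    rw [Nat.card_eq_fintype_card, Fintype.card_subtype]
    refine (Finset.card_le_card hsub).trans ((Multiset.toFinset_card_le _).trans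
      ((Polynomial.card_roots' _).trans ?_))
    rw [FiniteField.X_pow_card_sub_X_natDegree_eq K D.sqK.one_lt]
  have hq := D.hF.one_lt
  have h3 : q ^ 3 ≤ q ^ r := Nat.pow_le_pow_right (by omega) D.three_le
  have h4 : q ^ 2 < q ^ 3 := Nat.pow_lt_pow_right hq (by omega)
  have h5 : q ^ 2 * Nat.card S < (q ^ r) ^ 2 := by
    rw [sq (q ^ r)]
    exact Nat.mul_lt_mul_of_lt_of_le (by omega) hS (by positivity)
  omega

end FD

end Cfsg.Agent.MaxSub.UnitExt
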