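import Cfsg.Agent.MaxSub.UnitExt.Fld
import Cfsg.Agent.MaxSub.ExtField.Pair

/-!
Hermitian geometry over the extension field: the isometries available in an overgroup.
-/

set_option autoImplicit false
set_option linter.style.haveILetI false
set_option linter.unusedSectionVars false

namespace Cfsg.Agent.MaxSub.UnitExt

open Module Cfsg.Agent.Classical.U Cfsg.Agent.MaxSub.ExtField

universe u v w

variable {F : Type u} {K : Type v} {V : Type w} [Field F] [Field K] [Algebra F K] [AddCommGroup V]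
  [Module F V] [Module K V] [IsScalarTower F K V] {q r : ℕ}

/-- The standing hypotheses: `G` preserves the trace of the hermitian form `h` and contains the
isometries of `h` whose determinant has norm one. -/
structure Setup (q r : ℕ) (h : V → V → K) (G : Subgroup (V ≃ₗ[F] V)) : Prop where
  fld : FD F K q r
  dim : 2 ≤ finrank K V
  small : ¬ (q = 2 ∧ r = 3) ∨ 3 ≤ finrank K V
  add_left : ∀ u u' v, h (u + u') v = h u v + h u' v
  smul_left : ∀ (c : K) u v, h (c • u) v = c * h u v
  herm : ∀ u v, h v u = h u v ^ q ^ r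
  nondeg : ∀ v, (∀ u, h u v = 0) → v = 0
  iso : ∀ g ∈ G, ∀ u v, Algebra.trace F K (h (g u) (g v)) = Algebra.trace F K (h u v)
  lin : ∀ s : V ≃ₗ[K] V, (∀ u v, h (s u) (s v) = h u v) →
    Algebra.norm F (LinearEquiv.det s : K) = 1 → s.restrictScalars F ∈ G

namespace Setup

variable {h : V → V → K} {G : Subgroup (V ≃ₗ[F] V)} (hS : Setup q r h G)
include hS

lemma fdV : FiniteDimensional K V :=
  Module.finite_of_finrank_pos (lt_of_lt_of_le Nat.two_pos hS.dim)

lemma cj_cj (x : K) : (x ^ q ^ r) ^ q ^ r = x := hS.fld.sqK.pow_pow x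

lemma add_right (u v v' : V) : h u (v + v') = h u v + h u v' := by
  rw [hS.herm (v + v'), hS.add_left, hS.fld.sqK.add_pow, ← hS.herm, ← hS.herm]

lemma smul_right (c : K) (u v : V) : h u (c • v) = c ^ q ^ r * h u v := by
  rw [hS.herm (c • v), hS.smul_left, mul_pow, ← hS.herm]

lemma smulF_left (t : F) (u v : V) : h (t • u) v = algebraMap F K t * h u v := by
  rw [← algebraMap_smul K t, hS.smul_left]

lemma smulF_right (t : F) (u v : V) : h u (t • v) = algebraMap F K (t ^ q) * h u v := by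
  rw [← algebraMap_smul K t, hS.smul_right, hS.fld.algebraMap_pow]

lemma zero_left (v : V) : h 0 v = 0 := by
  have e := hS.smul_left 0 0 v
  rwa [zero_smul, zero_mul] at e

lemma zero_right (v : V) : h v 0 = 0 := by
  rw [hS.herm 0 v, hS.zero_left, zero_pow hS.fld.sqK.q_ne_zero]

lemma neg_left (u v : V) : h (-u) v = - h u v := by
  rw [← neg_one_smul K u, hS.smul_left, neg_one_mul]

lemma sub_left (u u' v : V) : h (u - u') v = h u v - h u' v := by
  rw [sub_eq_add_neg, hS.add_left, hS.neg_left, sub_eq_add_neg]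

lemma sub_right (u v v' : V) : h u (v - v') = h u v - h u v' := by
  have e := hS.add_right u (v - v') v'
  rw [sub_add_cancel] at e
  linear_combination -e

lemma self_fixed (v : V) : h v v ^ q ^ r = h v v := (hS.herm v v).symm

lemma zero_swap {u v : V} (e : h u v = 0) : h v u = 0 := by
  rw [hS.herm u v, e, zero_pow hS.fld.sqK.q_ne_zero]

omit hS in
/-- The trace form. -/
noncomputable def tf (h : V → V → K) (u v : V) : F := Algebra.trace F K (h u v)

lemma tf_swap (u v : V) : tf (F := F) h v u = tf (F := F) h u v ^ q := by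
  rw [tf, tf, hS.herm u v, hS.fld.trace_pow]

lemma tf_add_left (u u' v : V) :
    tf (F := F) h (u + u') v = tf (F := F) h u v + tf (F := F) h u' v := by
  rw [tf, tf, tf, hS.add_left, map_add]

lemma tf_add_right (u v v' : V) :
    tf (F := F) h u (v + v') = tf (F := F) h u v + tf (F := F) h u v' := by
  rw [tf, tf, tf, hS.add_right, map_add]

lemma tf_smul_left (t : F) (u v : V) : tf (F := F) h (t • u) v = t * tf (F := F) h u v := by
  rw [tf, tf, hS.smulF_left, hS.fld.trace_smul]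

lemma tf_smul_right (t : F) (u v : V) : tf (F := F) h u (t • v) = t ^ q * tf (F := F) h u v := by
  rw [tf, tf, hS.smulF_right, hS.fld.trace_smul]

omit hS in
/-- `x ↦ h x v`. -/
noncomputable def hl (hS : Setup q r h G) (v : V) : V →ₗ[K] K where
  toFun x := h x v
  map_add' x y := hS.add_left x y v
  map_smul' c x := hS.smul_left c x v

omit hS in
/-- `x ↦ tf h x v`. -/
noncomputable def fl (hS : Setup q r h G) (v : V) : V →ₗ[F] F :=
  (Algebra.trace F K) ∘ₗ (hl hS v).restrictScalars F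

omit hS in
lemma hl_apply (hS : Setup q r h G) (v x : V) : hl hS v x = h x v := rfl

omit hS in
lemma fl_apply (hS : Setup q r h G) (v x : V) : fl hS v x = tf (F := F) h x v := rfl

lemma exists_partner {y : V} (hy : y ≠ 0) : ∃ p, h y p = 1 ∧ h p y = 1 := by
  obtain ⟨u, hu⟩ : ∃ u, h u y ≠ 0 := by
    by_contra hc
    push Not at hc
    exact hy (hS.nondeg y hc)
  have e : h ((h u y)⁻¹ • u) y = 1 := by rw [hS.smul_left, inv_mul_cancel₀ hu]
  exact ⟨_, by rw [hS.herm _ y, e, one_pow], e⟩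

lemma exists_half : ∃ t : K, t + t ^ q ^ r = 1 := hS.fld.sqK.exists_trace (one_pow _)

/-- The isometries fixing a hyperplane pointwise. -/
lemma exists_href (v : V) (c : K) (hc : c + c ^ q ^ r + c * c ^ q ^ r * h v v = 0) :
    ∃ s : V ≃ₗ[K] V, (∀ x y, h (s x) (s y) = h x y) ∧ (LinearEquiv.det s : K) = 1 + c * h v v ∧
      ∀ x, s x = x + (c * h x v) • v := by
  haveI := hS.fdV
  let f : V →ₗ[K] V := LinearMap.transvection (c • hl hS v) v
  have hf : ∀ x, f x = x + (c * h x v) • v := fun x => by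
    simp [f, LinearMap.transvection.apply, hl_apply]
  have hiso : ∀ x y, h (f x) (f y) = h x y := fun x y => by
    rw [hf, hf, hS.add_left, hS.add_right, hS.add_right, hS.smul_left, hS.smul_left, hS.smul_right,
      hS.smul_right, mul_pow, ← hS.herm y v]
    linear_combination (h x v * h v y) * hc
  have hinj : Function.Injective f := (injective_iff_map_eq_zero f).2 fun x hx =>
    hS.nondeg x fun u => by rw [← hiso u x, hx, hS.zero_right]
  refine ⟨LinearEquiv.ofInjectiveEndo f hinj, hiso, ?_, hf⟩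
  rw [LinearEquiv.coe_det]
  show LinearMap.det f = _
  rw [LinearMap.transvection.det, LinearMap.smul_apply, hl_apply, smul_eq_mul]

omit hS in
/-- The elation with centre `v`. -/
noncomputable def el (hS : Setup q r h G) (v : V) (c : K) : V →ₗ[F] V :=
  ((c • hl hS v).smulRight v).restrictScalars F

omit hS in
lemma el_apply (hS : Setup q r h G) (v : V) (c : K) (x : V) : el hS v c x = (c * h x v) • v := rfl

lemma mem_el {v : V} (hv : h v v = 0) {c : K} (hc : c ^ q ^ r = -c) : Mem G (el hS v c) := by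
  obtain ⟨s, hs, hd, hsx⟩ := hS.exists_href v c (by rw [hv, mul_zero, add_zero, hc, add_neg_cancel])
  exact ⟨s.restrictScalars F, hS.lin s hs (by rw [hd, hv, mul_zero, add_zero, map_one]), hsx⟩

lemma el_skew (v : V) {c : K} (hc : c ^ q ^ r = -c) (x z : V) :
    tf (F := F) h (el hS v c x) z + tf (F := F) h x (el hS v c z) = 0 := by
  rw [tf, tf, el_apply, el_apply, hS.smul_left, hS.smul_right, mul_pow, hc, ← hS.herm z v,
    ← map_add]
  convert map_zero (Algebra.trace F K) using 2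
  ring

/-- A non-degenerate orthogonal complement contains anisotropic vectors. -/
lemma exists_aniso_perp (S : Submodule K V) (hlt : finrank K S < finrank K V)
    (hproj : ∀ z, ∃ z', z - z' ∈ S ∧ ∀ s ∈ S, h z' s = 0) :
    ∃ v, h v v ≠ 0 ∧ ∀ s ∈ S, h v s = 0 := by
  obtain ⟨z, hz⟩ : ∃ z, z ∉ S := by
    by_contra hc
    push Not at hc
    rw [Submodule.eq_top_iff'.2 hc, finrank_top] at hlt
    exact lt_irrefl _ hlt
  obtain ⟨z', hzS, hz'⟩ := hproj z
  have hz0 : z' ≠ 0 := fun e => hz (by rw [e, sub_zero] at hzS; exact hzS)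
  obtain ⟨p, hp, -⟩ := hS.exists_partner hz0
  obtain ⟨p', hpS, hp'⟩ := hproj p
  have hzp : h z' p' = 1 := by
    have e := hz' _ hpS
    rw [hS.sub_right, hp] at e
    linear_combination -e
  by_cases hzz : h z' z' = 0
  swap
  · exact ⟨z', hzz, hz'⟩
  by_cases hpp : h p' p' = 0
  swap
  · exact ⟨p', hpp, hp'⟩
  obtain ⟨t, ht⟩ := hS.exists_half
  refine ⟨z' + t • p', ?_, fun s hs => by
    rw [hS.add_left, hS.smul_left, hz' s hs, hp' s hs, mul_zero, add_zero]⟩
  rw [hS.add_left, hS.add_right, hS.add_right, hS.smul_left, hS.smul_left, hS.smul_right,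
    hS.smul_right, hzz, hpp, hS.herm z' p', hzp, one_pow]
  simp only [mul_zero, zero_add, add_zero, mul_one]
  rw [add_comm, ht]
  exact one_ne_zero

lemma exists_aniso : ∃ v, h v v ≠ 0 := by
  obtain ⟨v, hv, -⟩ := hS.exists_aniso_perp ⊥ (by
      rw [finrank_bot]; exact lt_of_lt_of_le Nat.two_pos hS.dim)
    fun z => ⟨z, by simp, fun s hs => by rw [(Submodule.mem_bot K).1 hs, hS.zero_right]⟩
  exact ⟨v, hv⟩

lemma exists_perp_one {y : V} (hy : h y y ≠ 0) : ∃ v, h v v ≠ 0 ∧ h v y = 0 := by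
  have hy0 : y ≠ 0 := fun e => hy (by rw [e, hS.zero_left])
  obtain ⟨v, hv, hvS⟩ := hS.exists_aniso_perp (K ∙ y)
    (by rw [finrank_span_singleton hy0]; exact hS.dim) fun z => ⟨z - (h z y / h y y) • y, by
      rw [sub_sub_cancel]; exact Submodule.smul_mem _ _ (Submodule.mem_span_singleton_self y),
      fun s hs => by
        obtain ⟨c, rfl⟩ := Submodule.mem_span_singleton.1 hs
        rw [hS.smul_right, hS.sub_left, hS.smul_left, div_mul_cancel₀ _ hy, sub_self, mul_zero]⟩
  exact ⟨v, hv, hvS y (Submodule.mem_span_singleton_self y)⟩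

lemma exists_isotropic : ∃ e : V, e ≠ 0 ∧ h e e = 0 := by
  obtain ⟨x, hx⟩ := hS.exists_aniso
  obtain ⟨y, hy, hyx⟩ := hS.exists_perp_one hx
  obtain ⟨s, hs⟩ := hS.fld.sqK.exists_norm (c := - h x x / h y y) (by
    rw [div_pow, hS.fld.sqK.neg_pow, hS.self_fixed, hS.self_fixed])
  refine ⟨x + s • y, fun e => ?_, ?_⟩
  · have e' := congrArg (fun z => h z x) e
    simp only [hS.add_left, hS.smul_left, hyx, mul_zero, add_zero, hS.zero_left] at e'
    exact hx e'
  · rw [hS.add_left, hS.add_right, hS.add_right, hS.smul_left, hS.smul_left, hS.smul_right,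
      hS.smul_right, hyx, hS.zero_swap hyx, ← mul_assoc, ← pow_succ', hs, div_mul_cancel₀ _ hy]
    ring

lemma exists_iso_partner {e : V} (he : h e e = 0) (he0 : e ≠ 0) :
    ∃ f, h f f = 0 ∧ h e f = 1 ∧ h f e = 1 := by
  obtain ⟨p, hp, hp'⟩ := hS.exists_partner he0
  obtain ⟨a, ha⟩ := hS.fld.sqK.exists_trace (c := - h p p)
    (by rw [hS.fld.sqK.neg_pow, hS.self_fixed])
  refine ⟨p + a • e, ?_, ?_, ?_⟩
  · rw [hS.add_left, hS.add_right, hS.add_right, hS.smul_left, hS.smul_left, hS.smul_right,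
      hS.smul_right, he, hp, hp']
    linear_combination ha
  · rw [hS.add_right, hS.smul_right, he, hp, mul_zero, add_zero]
  · rw [hS.add_left, hS.smul_left, he, hp', mul_zero, add_zero]

lemma hyp_proj {e f : V} (he : h e e = 0) (hf : h f f = 0) (hef : h e f = 1) (hfe : h f e = 1)
    (z : V) : ∃ z', z - z' ∈ Submodule.span K ({e, f} : Set V) ∧ h z' e = 0 ∧ h z' f = 0 := by
  refine ⟨z - h z f • e - h z e • f, ?_, ?_, ?_⟩
  · rw [Submodule.mem_span_pair]
    exact ⟨h z f, h z e, by abel⟩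
  · rw [hS.sub_left, hS.sub_left, hS.smul_left, hS.smul_left, he, hfe]; ring
  · rw [hS.sub_left, hS.sub_left, hS.smul_left, hS.smul_left, hf, hef]; ring

/-- Some isotropic vector is not orthogonal to a given non-zero vector. -/
lemma exists_iso_ne {x : V} (hx : x ≠ 0) : ∃ e, h e e = 0 ∧ e ≠ 0 ∧ h x e ≠ 0 := by
  obtain ⟨e, he0, he⟩ := hS.exists_isotropic
  obtain ⟨f, hf, hef, hfe⟩ := hS.exists_iso_partner he he0
  have hf0 : f ≠ 0 := fun e' => by rw [e', hS.zero_right] at hef; exact zero_ne_one hef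
  by_cases h1 : h x e = 0
  swap
  · exact ⟨e, he, he0, h1⟩
  by_cases h2 : h x f = 0
  swap
  · exact ⟨f, hf, hf0, h2⟩
  obtain ⟨p, hp, -⟩ := hS.exists_partner hx
  obtain ⟨p', hpS, hpe, hpf⟩ := hS.hyp_proj he hf hef hfe p
  have hxp : h x p' = 1 := by
    obtain ⟨a, b, hab⟩ := Submodule.mem_span_pair.1 hpS
    have e' : h x (p - p') = 0 := by
      rw [← hab, hS.add_right, hS.smul_right, hS.smul_right, h1, h2, mul_zero, mul_zero, add_zero]
    rw [hS.sub_right, hp] at e'
    linear_combination -e'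
  obtain ⟨a, ha⟩ := hS.fld.sqK.exists_trace (c := - h p' p')
    (by rw [hS.fld.sqK.neg_pow, hS.self_fixed])
  have hval : h x (p' + a • e + f) = 1 := by
    rw [hS.add_right, hS.add_right, hS.smul_right, hxp, h1, h2, mul_zero, add_zero, add_zero]
  refine ⟨p' + a • e + f, ?_, fun e' => ?_, by rw [hval]; exact one_ne_zero⟩
  · simp only [hS.add_left, hS.add_right, hS.smul_left, hS.smul_right, he, hf, hef, hfe, hpe, hpf,
      hS.zero_swap hpe, hS.zero_swap hpf]
    linear_combination ha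
  · rw [e', hS.zero_right] at hval
    exact zero_ne_one hval

lemma exists_perp_hyp (hk : 3 ≤ finrank K V) {e f : V} (he : h e e = 0) (hf : h f f = 0)
    (hef : h e f = 1) (hfe : h f e = 1) : ∃ v, h v v ≠ 0 ∧ h v e = 0 ∧ h v f = 0 := by
  obtain ⟨v, hv, hvS⟩ := hS.exists_aniso_perp (Submodule.span K ({e, f} : Set V))
    (by
      classical
      have h0 := finrank_span_finset_le_card (R := K) ({e, f} : Finset V)
      have := Finset.card_le_two (a := e) (b := f)
      unfold Set.finrank at h0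
      rw [Finset.coe_pair] at h0
      omega)
    fun z => by
      obtain ⟨z', hz, h1, h2⟩ := hS.hyp_proj he hf hef hfe z
      refine ⟨z', hz, fun s hs => ?_⟩
      obtain ⟨a, b, rfl⟩ := Submodule.mem_span_pair.1 hs
      rw [hS.add_right, hS.smul_right, hS.smul_right, h1, h2, mul_zero, mul_zero, add_zero]
  exact ⟨v, hv, hvS e (Submodule.subset_span (by simp)), hvS f (Submodule.subset_span (by simp))⟩

/-- Scaling an isotropic vector. -/
lemma exists_scale {e : V} (he : h e e = 0) (he0 : e ≠ 0) {l : K} (hl : l ≠ 0)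
    (hk : 3 ≤ finrank K V ∨ Algebra.norm F l = 1) :
    ∃ g ∈ G, (∀ (k : K) x, g (k • x) = k • g x) ∧ g e = l • e := by
  haveI := hS.fdV
  obtain ⟨f, hf, hef, hfe⟩ := hS.exists_iso_partner he he0
  obtain ⟨m, hm⟩ : ∃ m, m = (l ^ q ^ r)⁻¹ := ⟨_, rfl⟩
  have hlQ : l ^ q ^ r ≠ 0 := pow_ne_zero _ hl
  have hlm : m * l ^ q ^ r = 1 := by rw [hm, inv_mul_cancel₀ hlQ]
  have hml : l * m ^ q ^ r = 1 := by
    rw [hm, inv_pow, hS.cj_cj, mul_inv_cancel₀ hl]
  let T₁ : V →ₗ[K] V := LinearMap.transvection ((l - 1) • Setup.hl hS f) e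
  let T₂ : V →ₗ[K] V := LinearMap.transvection ((m - 1) • Setup.hl hS e) f
  let S : V →ₗ[K] V := T₁ ∘ₗ T₂
  have hSx : ∀ x, S x = x + ((l - 1) * h x f) • e + ((m - 1) * h x e) • f := fun x => by
    simp only [S, T₁, T₂, LinearMap.comp_apply, LinearMap.transvection.apply, LinearMap.smul_apply,
      hl_apply, smul_eq_mul, hS.add_left, hS.smul_left, hf, mul_zero, add_zero]
    abel
  have hiso : ∀ x y, h (S x) (S y) = h x y := fun x y => by
    simp only [hSx, hS.add_left, hS.add_right, hS.smul_left, hS.smul_right, he, hf, hef, hfe,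
      mul_pow, hS.fld.sqK.sub_pow, one_pow, ← hS.herm y f, ← hS.herm y e]
    linear_combination (h x f * h e y) * hml + (h x e * h f y) * hlm
  have hdet : LinearMap.det S = l * m := by
    simp [S, T₁, T₂, LinearMap.det_comp, LinearMap.transvection.det, hl_apply, hef, hfe]
  have hinj : Function.Injective S := (injective_iff_map_eq_zero S).2 fun x hx =>
    hS.nondeg x fun u => by rw [← hiso u x, hx, hS.zero_right]
  let s : V ≃ₗ[K] V := LinearEquiv.ofInjectiveEndo S hinj
  have hsdet : (LinearEquiv.det s : K) = l * m := by rw [LinearEquiv.coe_det]; exact hdet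
  have hse : s e = l • e := by
    show S e = _
    rw [hSx, hef, he, mul_one, mul_zero, zero_smul, add_zero, sub_smul, one_smul, add_sub_cancel]
  by_cases hk3 : 3 ≤ finrank K V
  · obtain ⟨v, hv, hve, hvf⟩ := hS.exists_perp_hyp hk3 he hf hef hfe
    obtain ⟨μ, hμ⟩ : ∃ μ, μ = l ^ q ^ r / l := ⟨_, rfl⟩
    have hμμ : μ * μ ^ q ^ r = 1 := by
      rw [hμ, div_pow, hS.cj_cj]; field_simp
    obtain ⟨s', hs', hd', hsx'⟩ := hS.exists_href v ((μ - 1) / h v v) (by
      rw [div_pow, hS.fld.sqK.sub_pow, one_pow, hS.self_fixed]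
      field_simp
      linear_combination hμμ)
    refine ⟨(s.trans s').restrictScalars F, hS.lin _ (fun x y => ?_) ?_, fun k x =>
      (s.trans s').map_smul k x, ?_⟩
    · rw [LinearEquiv.trans_apply, LinearEquiv.trans_apply, hs']
      exact hiso x y
    · rw [LinearEquiv.det_trans, Units.val_mul, hsdet, hd', hm, div_mul_cancel₀ _ hv, hμ,
        show (1 + (l ^ q ^ r / l - 1)) * (l * (l ^ q ^ r)⁻¹) = 1 by field_simp; ring, map_one]
    · show s' (s e) = _
      rw [hse, hsx', hS.smul_left, hS.zero_swap hve, mul_zero, mul_zero, zero_smul, add_zero]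
  · refine ⟨s.restrictScalars F, hS.lin _ hiso ?_, fun k x => s.map_smul k x, hse⟩
    have e := congrArg (Algebra.norm F) hlm
    rw [map_mul, hS.fld.norm_pow, hk.resolve_left hk3, one_pow, mul_one, map_one] at e
    rw [hsdet, map_mul, hk.resolve_left hk3, e, mul_one]

/-- Vectors of one non-zero norm are conjugate in `G`. -/
lemma exists_move {x x' : V} (heq : h x x = h x' x') (hne : h x x ≠ 0) : ∃ g ∈ G, g x = x' := by
  haveI := hS.fdV
  have step : ∀ x x' : V, h x x = h x' x' → h x x - h x x' ≠ 0 →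
      ∃ s : V ≃ₗ[K] V, (∀ a b, h (s a) (s b) = h a b) ∧
        (LinearEquiv.det s : K) * (LinearEquiv.det s : K) ^ q ^ r = 1 ∧ s x = x' := by
    intro x x' heq hP
    obtain ⟨v, hv⟩ : ∃ v, v = x - x' := ⟨_, rfl⟩
    obtain ⟨P, hP'⟩ : ∃ P, P = h x v := ⟨_, rfl⟩
    have hPne : P ≠ 0 := by rw [hP', hv, hS.sub_right]; exact hP
    have hvv : h v v = P + P ^ q ^ r := by
      rw [hP', ← hS.herm, hv, hS.sub_right, hS.sub_left, hS.sub_left, hS.sub_right]
      linear_combination -heq
    obtain ⟨s, hs, hd, hsx⟩ := hS.exists_href v (-P⁻¹) (by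
      rw [hvv, hS.fld.sqK.neg_pow, inv_pow]
      have := pow_ne_zero (q ^ r) hPne
      field_simp
      ring)
    refine ⟨s, hs, ?_, ?_⟩
    · have e : (1 + -P⁻¹ * h v v) = -(P ^ q ^ r) / P := by rw [hvv]; field_simp; ring
      rw [hd, e, div_pow, hS.fld.sqK.neg_pow, hS.cj_cj]
      have := pow_ne_zero (q ^ r) hPne
      field_simp
    rw [hsx, ← hP', neg_mul, inv_mul_cancel₀ hPne, neg_one_smul, hv]
    abel
  obtain ⟨s₀, hs₀, hdet₀, hs₀x⟩ : ∃ s : V ≃ₗ[K] V, (∀ a b, h (s a) (s b) = h a b) ∧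
      (LinearEquiv.det s : K) * (LinearEquiv.det s : K) ^ q ^ r = 1 ∧ s x = x' := by
    by_cases hP : h x x - h x x' = 0
    swap
    · exact step x x' heq hP
    obtain ⟨w, hw⟩ : ∃ w : K, w ^ q ^ r ≠ w := by
      obtain ⟨t, ht⟩ := hS.fld.exists_not_fixed
      exact ⟨algebraMap F K t, by
        rw [hS.fld.algebraMap_pow]; exact fun e => ht ((algebraMap F K).injective e)⟩
    have hw0 : w ≠ 0 := fun e => hw (by rw [e, zero_pow hS.fld.sqK.q_ne_zero])
    obtain ⟨μ, hμ⟩ : ∃ μ, μ = w ^ q ^ r / w := ⟨_, rfl⟩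
    have hμμ : μ * μ ^ q ^ r = 1 := by
      rw [hμ, div_pow, hS.cj_cj]; field_simp [pow_ne_zero (q ^ r) hw0]
    have hμ1 : μ ≠ 1 := fun e => hw (by rwa [hμ, div_eq_one_iff_eq hw0] at e)
    have hnorm : h (μ • x) (μ • x) = h x x := by
      rw [hS.smul_left, hS.smul_right, ← mul_assoc, hμμ, one_mul]
    obtain ⟨s₁, hs₁, hd₁, h1⟩ := step x (μ • x) hnorm.symm (by
      rw [hS.smul_right]
      intro e
      apply hμ1
      have : μ ^ q ^ r = 1 := mul_right_cancel₀ hne (by linear_combination -e)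
      rwa [this, mul_one] at hμμ)
    obtain ⟨s₂, hs₂, hd₂, h2⟩ := step (μ • x) x' (hnorm.trans heq) (by
      rw [hnorm, hS.smul_left, ← sub_eq_zero.1 hP]
      intro e
      exact hμ1 (mul_right_cancel₀ hne (by linear_combination -e)))
    exact ⟨s₁.trans s₂, fun a b => by
      rw [LinearEquiv.trans_apply, LinearEquiv.trans_apply, hs₂, hs₁],
      by rw [LinearEquiv.det_trans, Units.val_mul, mul_pow, mul_mul_mul_comm, hd₁, hd₂, mul_one],
      by rw [LinearEquiv.trans_apply, h1, h2]⟩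
  obtain ⟨v, hv, hvx⟩ := hS.exists_perp_one (y := x') (by rw [← heq]; exact hne)
  obtain ⟨d, hd⟩ : ∃ d : K, d = (LinearEquiv.det s₀ : K) := ⟨_, rfl⟩
  have hd0 : d ≠ 0 := hd ▸ (LinearEquiv.det s₀).ne_zero
  obtain ⟨M, hM, hdN⟩ : ∃ μ : K, μ * μ ^ q ^ r = 1 ∧ Algebra.norm F (μ * d) = 1 := by
    refine ⟨d⁻¹, ?_, by rw [inv_mul_cancel₀ hd0, map_one]⟩
    have hcirc : d * d ^ q ^ r = 1 := hd ▸ hdet₀
    rw [inv_pow, ← mul_inv, hcirc, inv_one]
  obtain ⟨s', hs', hd', hsx'⟩ := hS.exists_href v ((M - 1) / h v v) (by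
    rw [div_pow, hS.fld.sqK.sub_pow, one_pow, hS.self_fixed]
    field_simp
    linear_combination hM)
  refine ⟨(s₀.trans s').restrictScalars F, hS.lin _ (fun a b => by
    rw [LinearEquiv.trans_apply, LinearEquiv.trans_apply, hs', hs₀]) ?_, ?_⟩
  · rw [LinearEquiv.det_trans, Units.val_mul, ← hd, hd', div_mul_cancel₀ _ hv, add_sub_cancel,
      hdN]
  · show s' (s₀ x) = x'
    rw [hs₀x, hsx', hS.zero_swap hvx, mul_zero, zero_smul, add_zero]

end Setup

end Cfsg.Agent.MaxSub.UnitExt
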