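import Cfsg.Agent.MaxSub.UnitExt.Basic

/-!
One group of transvections centred at a vector isotropic over the extension gives all of them, and
an element preserving the isotropic lines is semilinear.
-/

set_option autoImplicit false
set_option linter.style.haveILetI false
set_option linter.unusedSectionVars false

namespace Cfsg.Agent.MaxSub.UnitExt

open Module Cfsg.Agent.Classical.U Cfsg.Agent.MaxSub.ExtField

universe u v w

variable {F : Type u} {K : Type v} {V : Type w} [Field F] [Field K] [Algebra F K] [AddCommGroup V]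
  [Module F V] [Module K V] [IsScalarTower F K V] {q r : ℕ}

namespace Setup

variable {h : V → V → K} {G : Subgroup (V ≃ₗ[F] V)} (hS : Setup q r h G)

/-- The transvection map at `v`. -/
noncomputable def tau (v : V) : V →ₗ[F] V := (fl hS v).smulRight v

lemma tau_apply (v x : V) : tau hS v x = tf (F := F) h x v • v := rfl

/-- All transvections with centre `v` lie in `G`. -/
def Ctr (v : V) : Prop := ∀ t : F, t ^ q = -t → Mem G (t • tau hS v)

include hS

lemma ctr_map {v : V} (hv : Ctr hS v) {g : V ≃ₗ[F] V} (hg : g ∈ G) : Ctr hS (g v) := fun t ht => by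
  refine ((hv t ht).conj hg).congr fun x => ?_
  simp only [LinearMap.comp_apply, LinearEquiv.coe_coe, LinearMap.smul_apply, tau_apply, map_smul]
  rw [show tf (F := F) h (g⁻¹ x) v = tf (F := F) h x (g v) by
    rw [tf, ← hS.iso g hg, self_inv_apply]; rfl]

lemma ctr_move {a b : V} (ha : Ctr hS a) (hb : Ctr hS b) {t : F} (ht : t ^ q = -t) :
    Ctr hS (a + (t * tf (F := F) h a b) • b) ∧
      tf (F := F) h (a + (t * tf (F := F) h a b) • b) (a + (t * tf (F := F) h a b) • b) =
        tf (F := F) h a a := by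
  obtain ⟨g, hg, hgx⟩ := hb t ht
  have e : g a = a + (t * tf (F := F) h a b) • b := by
    rw [hgx, LinearMap.smul_apply, tau_apply, smul_smul]
  rw [← e]
  exact ⟨hS.ctr_map ha hg, hS.iso g hg a a⟩

lemma skew_inv {x : K} (hx : x ^ q ^ r = -x) :
    ((Algebra.trace F K x)⁻¹) ^ q = -(Algebra.trace F K x)⁻¹ := by
  rw [inv_pow, ← hS.fld.trace_pow, hx, map_neg, inv_neg]

/-- An anisotropic centre. -/
lemma exists_ctr_aniso {d : V} (hd : h d d = 0) (hd0 : d ≠ 0) (hC : Ctr hS d) :
    ∃ x, Ctr hS x ∧ h x x ≠ 0 ∧ tf (F := F) h x x = 0 := by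
  obtain ⟨p, hp, hdp, hpd⟩ := hS.exists_iso_partner hd hd0
  obtain ⟨l, hl0, hlk, hl⟩ : ∃ l : K, l ≠ 0 ∧ (3 ≤ finrank K V ∨ Algebra.norm F l = 1) ∧
      ∀ (t : F) (s : K), s ^ q ^ r = s → l ≠ algebraMap F K t * s := by
    by_cases hk : 3 ≤ finrank K V
    · obtain ⟨l, hl0, hl⟩ := hS.fld.exists_mix
      exact ⟨l, hl0, Or.inl hk, hl⟩
    · obtain ⟨μ, h1, h2, h3⟩ := hS.fld.exists_circle
        (hS.small.resolve_right fun h4 => hk (by omega))
      exact ⟨μ, left_ne_zero_of_mul_eq_one h1, Or.inr h2, hS.fld.circle_mix h1 h3⟩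
  obtain ⟨c, hc, hct⟩ := hS.fld.exists_skew_trace_ne (pow_ne_zero (q ^ r) hl0)
  obtain ⟨E, hE, hEx⟩ := hS.mem_el hp hc
  have hEd : E d = d + c • p := by rw [hEx, el_apply, hdp, mul_one]
  have hd'0 : E d ≠ 0 := fun e => hd0 (E.injective (by rw [e, map_zero]))
  have hd' : h (E d) (E d) = 0 := by
    rw [hEd, hS.add_left, hS.add_right, hS.add_right, hS.smul_left, hS.smul_left, hS.smul_right,
      hS.smul_right, hd, hp, hdp, hpd, hc]
    ring
  obtain ⟨g, hg, -, hgd⟩ := hS.exists_scale hd' hd'0 hl0 hlk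
  have hb : Ctr hS (l • E d) := hgd ▸ hS.ctr_map (hS.ctr_map hC hE) hg
  obtain ⟨κ, hκ⟩ : ∃ κ, κ = h d (l • E d) := ⟨_, rfl⟩
  have hκ' : κ = -(c * l ^ q ^ r) := by
    rw [hκ, hS.smul_right, hEd, hS.add_right, hS.smul_right, hd, hdp, hc]
    ring
  obtain ⟨ζ, hζ0, hζ⟩ := hS.fld.hF.exists_skew
  obtain ⟨hxC, hxf⟩ := hS.ctr_move hC hb hζ
  refine ⟨_, hxC, fun h0 => ?_, hxf.trans (by rw [tf, hd, map_zero])⟩
  obtain ⟨T, hT⟩ : ∃ T, T = Algebra.trace F K κ := ⟨_, rfl⟩
  have hT0 : T ≠ 0 := by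
    rw [hT, hκ', map_neg, neg_ne_zero]
    exact hct
  rw [tf, ← hκ, ← hT] at h0
  have hbb : h (l • E d) (l • E d) = 0 := by
    rw [hS.smul_left, hS.smul_right, hd', mul_zero, mul_zero]
  rw [hS.add_left, hS.add_right, hS.add_right, hS.smulF_left, hS.smulF_left, hS.smulF_right,
    hS.smulF_right, hd, hbb, hS.herm d (l • E d), ← hκ, mul_pow, hζ, map_mul, map_mul, map_neg,
    mul_zero, mul_zero, add_zero, zero_add] at h0
  have hζK : algebraMap F K ζ ≠ 0 := by simpa using hζ0
  have hTK : algebraMap F K T ≠ 0 := by simpa using hT0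
  have e1 : algebraMap F K T * κ ^ q ^ r = algebraMap F K (T ^ q) * κ :=
    sub_eq_zero.1 ((mul_eq_zero.1 (show algebraMap F K ζ *
      (algebraMap F K T * κ ^ q ^ r - algebraMap F K (T ^ q) * κ) = 0 by
        linear_combination h0)).resolve_left hζK)
  obtain ⟨s, hs⟩ : ∃ s, s = κ / algebraMap F K T := ⟨_, rfl⟩
  have hTq : algebraMap F K (T ^ q) ≠ 0 := by simpa using pow_ne_zero q hT0
  have hsf : s ^ q ^ r = s := by
    rw [hs, div_pow, hS.fld.algebraMap_pow, div_eq_div_iff hTq hTK]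
    linear_combination e1
  have hc0 : c ≠ 0 := fun e => hct (by rw [e, zero_mul, map_zero])
  refine hl (T ^ q / ζ) (s * algebraMap F K ζ / c) ?_ ?_
  · rw [div_pow, mul_pow, hsf, hc, hS.fld.algebraMap_pow, hζ, map_neg]
    ring
  · have e2 : c * l = algebraMap F K (T ^ q) * s := by
      have h1 : κ ^ q ^ r = c * l := by
        rw [hκ', hS.fld.sqK.neg_pow, mul_pow, hc, hS.cj_cj]; ring
      rw [← h1, ← hsf, hs, div_pow, hS.fld.algebraMap_pow, mul_div_cancel₀ _ hTq]
    rw [map_div₀]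
    field_simp
    linear_combination e2

/-- All isotropic centres. -/
lemma ctr_isotropic {x₀ : V} (hC : Ctr hS x₀) (h0 : h x₀ x₀ ≠ 0) (hf : tf (F := F) h x₀ x₀ = 0)
    {z : V} (hz : h z z = 0) (hz0 : z ≠ 0) : Ctr hS z := by
  obtain ⟨p, hp, hzp, hpz⟩ := hS.exists_iso_partner hz hz0
  obtain ⟨t1, ht1⟩ := hS.exists_half
  obtain ⟨c, hc, hct⟩ := hS.fld.exists_skew_trace_ne (one_ne_zero (α := K))
  rw [mul_one] at hct
  have hc0 : c ≠ 0 := fun e => hct (by rw [e, map_zero])
  obtain ⟨δ, hδ⟩ : ∃ δ, δ = h x₀ x₀ := ⟨_, rfl⟩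
  obtain ⟨u, hu⟩ : ∃ u, u = t1 * δ / (c ^ q ^ r) := ⟨_, rfl⟩
  obtain ⟨x, hx⟩ : ∃ x, x = u • z + c • p := ⟨_, rfl⟩
  have hδf : δ ^ q ^ r = δ := by rw [hδ, hS.self_fixed]
  have hxx : h x x = δ := by
    rw [hx, hS.add_left, hS.add_right, hS.add_right, hS.smul_left, hS.smul_left, hS.smul_left,
      hS.smul_left, hS.smul_right, hS.smul_right, hS.smul_right, hS.smul_right, hz, hp, hzp, hpz]
    have e1 : u * c ^ q ^ r = t1 * δ := by rw [hu, div_mul_cancel₀ _ (pow_ne_zero _ hc0)]
    have e2 : u ^ q ^ r * c = t1 ^ q ^ r * δ := by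
      have := congrArg (· ^ q ^ r) e1
      simpa only [mul_pow, hS.cj_cj, hδf] using this
    linear_combination e1 + e2 + δ * ht1
  have hzx : h z x = -c := by
    rw [hx, hS.add_right, hS.smul_right, hS.smul_right, hz, hzp, hc]
    ring
  have hxz : h x z = c := by rw [hS.herm z x, hzx, hS.fld.sqK.neg_pow, hc, neg_neg]
  have hx'x' : h (z - x) (z - x) = δ := by
    rw [hS.sub_left, hS.sub_right, hS.sub_right, hz, hzx, hxz, hxx]
    ring
  have hCx : ∀ x, h x x = δ → Ctr hS x := fun x hx' => by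
    obtain ⟨g, hg, rfl⟩ := hS.exists_move (x := x₀) (x' := x) (by rw [hx', hδ]) h0
    exact hS.ctr_map hC hg
  have hval : tf (F := F) h x (z - x) = Algebra.trace F K c := by
    rw [tf, hS.sub_right, hxz, hxx, map_sub, hδ, ← tf, hf, sub_zero]
  have := (hS.ctr_move (hCx x hxx) (hCx _ hx'x') (t := (Algebra.trace F K c)⁻¹)
    (hS.skew_inv hc)).1
  rwa [hval, inv_mul_cancel₀ hct, one_smul, add_sub_cancel] at this

/-- All centres. -/
theorem ctr_all {d : V} (hd : h d d = 0) (hd0 : d ≠ 0) (hC : Ctr hS d) {x : V} (hx0 : x ≠ 0)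
    (hf : tf (F := F) h x x = 0) : Ctr hS x := by
  obtain ⟨x₁, hC₁, h1, hf₁⟩ := hS.exists_ctr_aniso hd hd0 hC
  by_cases hxx : h x x = 0
  · exact hS.ctr_isotropic hC₁ h1 hf₁ hxx hx0
  obtain ⟨e, he, he0, hxe⟩ := hS.exists_iso_ne hx0
  obtain ⟨t, ht⟩ := hS.exists_half
  obtain ⟨c, hc, hct⟩ := hS.fld.exists_skew_trace_ne (one_ne_zero (α := K))
  rw [mul_one] at hct
  obtain ⟨δ, hδ⟩ : ∃ δ, δ = h x x := ⟨_, rfl⟩
  -- half of the value, off by a skew element with trace not zero
  obtain ⟨P, hP, hPt⟩ : ∃ P : K, P + P ^ q ^ r = δ ∧ Algebra.trace F K P ≠ 0 := by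
    have hfix : δ ^ q ^ r = δ := by rw [hδ, hS.self_fixed]
    by_cases hT : Algebra.trace F K (t * δ) = 0
    · refine ⟨t * δ + c, ?_, by rw [map_add, hT, zero_add]; exact hct⟩
      rw [hS.fld.sqK.add_pow, mul_pow, hfix, hc]
      linear_combination δ * ht
    · refine ⟨t * δ, ?_, hT⟩
      rw [mul_pow, hfix]
      linear_combination δ * ht
  have hPskew : (Algebra.trace F K P) ^ q = -Algebra.trace F K P := by
    rw [← hS.fld.trace_pow, eq_neg_iff_add_eq_zero, ← map_add, add_comm, hP, hδ]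
    exact hf
  obtain ⟨α, hα⟩ : ∃ α, α = P / h e x := ⟨_, rfl⟩
  have hex : h e x ≠ 0 := fun e' => hxe (hS.zero_swap e')
  have hae : h (α • e) x = P := by rw [hS.smul_left, hα, div_mul_cancel₀ _ hex]
  obtain ⟨a, ha⟩ : ∃ a, a = α • e := ⟨_, rfl⟩
  rw [← ha] at hae
  have haa : h a a = 0 := by rw [ha, hS.smul_left, hS.smul_right, he, mul_zero, mul_zero]
  have ha0 : a ≠ 0 := fun e' => by
    rw [e', hS.zero_left] at hae
    exact hPt (by rw [← hae, map_zero])
  have hxa : h x a = P ^ q ^ r := by rw [hS.herm a x, hae]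
  have hbb : h (x - a) (x - a) = 0 := by
    rw [hS.sub_left, hS.sub_right, hS.sub_right, ← hδ, hxa, hae, haa]
    linear_combination -hP
  have hb0 : x - a ≠ 0 := fun e' => hxx (by rw [sub_eq_zero.1 e', haa])
  have hab : tf (F := F) h a (x - a) = Algebra.trace F K P := by
    rw [tf, hS.sub_right, hae, haa, sub_zero]
  have := (hS.ctr_move (hS.ctr_isotropic hC₁ h1 hf₁ haa ha0) (hS.ctr_isotropic hC₁ h1 hf₁ hbb hb0)
    (t := (Algebra.trace F K P)⁻¹) (by rw [inv_pow, hPskew, inv_neg])).1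
  rwa [hab, inv_mul_cancel₀ hPt, one_smul, add_sub_cancel] at this

/-- An element mapping isotropic lines onto lines is semilinear. -/
theorem semilinear_of_lines (g : V ≃ₗ[F] V)
    (hg : ∀ w, w ≠ 0 → h w w = 0 → ∃ y, (kline F K w).map g.toLinearMap = kline F K y) :
    ∀ k : K, ∃ k' : K, ∀ x, g (k • x) = k' • g x := by
  have hline : ∀ e, e ≠ 0 → h e e = 0 → ∀ l : K, ∃ α : K, g (l • e) = α • g e := by
    intro e he0 he l
    obtain ⟨y, hy⟩ := hg e he0 he
    obtain ⟨a, ha⟩ : ∃ a, a • y = g e :=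
      mem_kline.1 (hy ▸ Submodule.mem_map_of_mem (self_mem_kline e))
    obtain ⟨b, hb⟩ : ∃ b, b • y = g (l • e) :=
      mem_kline.1 (hy ▸ Submodule.mem_map_of_mem (mem_kline.2 ⟨l, rfl⟩))
    have ha0 : a ≠ 0 := fun e' => he0 (g.injective (by rw [← ha, e', zero_smul, map_zero]))
    exact ⟨b / a, by rw [← hb, ← ha, smul_smul, div_mul_cancel₀ _ ha0]⟩
  choose θ hθ using hline
  have huniq : ∀ e, e ≠ 0 → ∀ {a b : K}, a • g e = b • g e → a = b := fun e he0 a b hab => by
    by_contra hne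
    have h0 : g e = 0 := (smul_eq_zero.1 (show (a - b) • g e = 0 by rw [sub_smul, hab, sub_self]))
      |>.resolve_left (sub_ne_zero.2 hne)
    exact he0 (g.injective (by rw [h0, map_zero]))
  -- a pair of non-orthogonal lines
  have hpair : ∀ e f (he0 : e ≠ 0) (he : h e e = 0) (hf0 : f ≠ 0) (hf : h f f = 0), h e f = 1 →
      (∀ l, θ e he0 he l = θ f hf0 hf l) ∧
        ∀ l m, θ e he0 he (l * m) = θ e he0 he l * θ e he0 he m := by
    intro e f he0 he hf0 hf hef
    have hfe : h f e = 1 := by rw [hS.herm e f, hef, one_pow]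
    have hind : ∀ a b : K, a • g e + b • g f = 0 → a = 0 ∧ b = 0 := by
      intro a b hab
      by_cases hb : b = 0
      · subst hb
        rw [zero_smul, add_zero] at hab
        exact ⟨huniq e he0 (by rw [hab, zero_smul]), rfl⟩
      · exfalso
        obtain ⟨y, hy⟩ := hg e he0 he
        have hge : g e ∈ kline F K y := hy ▸ Submodule.mem_map_of_mem (self_mem_kline e)
        have hgf : g f ∈ kline F K y := by
          have e2 : g f = (-(b⁻¹ * a)) • g e := by
            have := congrArg (b⁻¹ • ·) hab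
            simp only [smul_add, smul_smul, inv_mul_cancel₀ hb, one_smul, smul_zero] at this
            rw [neg_smul]
            exact eq_neg_of_add_eq_zero_right this
          rw [e2]
          exact smul_mem_kline hge _
        rw [← hy] at hgf
        obtain ⟨x, hx, hxe⟩ := Submodule.mem_map.1 hgf
        obtain ⟨l, rfl⟩ := mem_kline.1 hx
        have := g.injective hxe
        rw [← this, hS.smul_right, he, mul_zero] at hef
        exact zero_ne_one hef
    have hskew : ∀ (c : K), c ^ q ^ r = -c → ∀ l,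
        θ f hf0 hf (l * c) = θ e he0 he l * θ f hf0 hf c := by
      intro c hc l
      have hw0 : e + c • f ≠ 0 := fun e' => by
        have := congrArg (fun x => h x f) e'
        simp only [hS.add_left, hS.smul_left, hef, hf, mul_zero, add_zero, hS.zero_left] at this
        exact one_ne_zero this
      have hw : h (e + c • f) (e + c • f) = 0 := by
        rw [hS.add_left, hS.add_right, hS.add_right, hS.smul_left, hS.smul_left, hS.smul_right,
          hS.smul_right, he, hf, hef, hfe, hc]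
        ring
      have e1 := hθ (e + c • f) hw0 hw l
      rw [smul_add, smul_smul, map_add, map_add, hθ e he0 he, hθ f hf0 hf (l * c), hθ f hf0 hf c,
        smul_add, smul_smul] at e1
      obtain ⟨h1, h2⟩ := hind (θ e he0 he l - θ _ hw0 hw l)
        (θ f hf0 hf (l * c) - θ _ hw0 hw l * θ f hf0 hf c)
        (by linear_combination (norm := module) e1)
      rw [sub_eq_zero.1 h1]
      exact sub_eq_zero.1 h2
    have hlinF : ∀ e (he0 : e ≠ 0) (he : h e e = 0) (t : F) (l : K),
        θ e he0 he (algebraMap F K t * l) = algebraMap F K t * θ e he0 he l := by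
      intro e he0 he t l
      refine huniq e he0 ?_
      rw [← hθ, mul_smul, mul_smul, algebraMap_smul, algebraMap_smul, map_smul, hθ]
    have hadd : ∀ e (he0 : e ≠ 0) (he : h e e = 0) (l m : K),
        θ e he0 he (l + m) = θ e he0 he l + θ e he0 he m := by
      intro e he0 he l m
      refine huniq e he0 ?_
      rw [← hθ, add_smul, add_smul, map_add, hθ, hθ]
    have hone : ∀ e (he0 : e ≠ 0) (he : h e e = 0), θ e he0 he 1 = 1 := fun e he0 he =>
      huniq e he0 (by rw [← hθ, one_smul, one_smul])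
    obtain ⟨ζ, hζ0, hζ⟩ := hS.fld.hF.exists_skew
    have hζK : algebraMap F K ζ ≠ 0 := by simpa using hζ0
    have hζs : algebraMap F K ζ ^ q ^ r = -algebraMap F K ζ := by
      rw [hS.fld.algebraMap_pow, hζ, map_neg]
    have heq : ∀ l, θ e he0 he l = θ f hf0 hf l := fun l => by
      have e1 := hskew _ hζs l
      have e2 : θ f hf0 hf (algebraMap F K ζ) = algebraMap F K ζ := by
        conv_lhs => rw [← mul_one (algebraMap F K ζ)]
        rw [hlinF, hone, mul_one]
      rw [mul_comm l, hlinF, e2, mul_comm] at e1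
      exact (mul_right_cancel₀ hζK e1).symm
    refine ⟨heq, fun l m => ?_⟩
    have hfix : ∀ s : K, s ^ q ^ r = s → θ e he0 he (l * s) = θ e he0 he l * θ e he0 he s := by
      intro s hs
      have e1 := hskew (algebraMap F K ζ * s) (by rw [mul_pow, hζs, hs]; ring) l
      rw [mul_left_comm, hlinF, hlinF, ← heq, ← heq] at e1
      exact mul_left_cancel₀ hζK (by linear_combination e1)
    obtain ⟨a, b, t, -, ha, hb, rfl⟩ := hS.fld.decomp m
    rw [mul_add, mul_left_comm, hadd, hadd, hlinF, hlinF, hfix a ha, hfix b hb]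
    ring
  have hpair' : ∀ e f (he0 : e ≠ 0) (he : h e e = 0) (hf0 : f ≠ 0) (hf : h f f = 0), h e f ≠ 0 →
      ∀ l, θ e he0 he l = θ f hf0 hf l := by
    intro e f he0 he hf0 hf hne l
    obtain ⟨κ, hκ⟩ : ∃ κ, κ = (h e f ^ q ^ r)⁻¹ := ⟨_, rfl⟩
    have hκ0 : κ ≠ 0 := hκ ▸ inv_ne_zero (pow_ne_zero _ hne)
    have hf'0 : κ • f ≠ 0 := smul_ne_zero hκ0 hf0
    have hf' : h (κ • f) (κ • f) = 0 := by
      rw [hS.smul_left, hS.smul_right, hf, mul_zero, mul_zero]
    have hef' : h e (κ • f) = 1 := by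
      rw [hS.smul_right, hκ, inv_pow, hS.cj_cj, inv_mul_cancel₀ hne]
    obtain ⟨heq, hmul⟩ := hpair e (κ • f) he0 he hf'0 hf' hef'
    refine huniq f hf0 ?_
    rw [← hθ, show l • f = (l * κ⁻¹) • κ • f by rw [smul_smul, inv_mul_cancel_right₀ hκ0],
      hθ (κ • f) hf'0 hf', ← heq, hmul, mul_smul]
    congr 1
    have e1 : g f = θ e he0 he κ⁻¹ • g (κ • f) := by
      conv_lhs => rw [← inv_smul_smul₀ hκ0 f]
      rw [hθ (κ • f) hf'0 hf', heq]
    exact e1
  intro k
  obtain ⟨e₀, he₀0, he₀⟩ := hS.exists_isotropic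
  refine ⟨θ e₀ he₀0 he₀ k, ?_⟩
  have hall : ∀ e (he0 : e ≠ 0) (he : h e e = 0), θ e he0 he k = θ e₀ he₀0 he₀ k := by
    intro e he0 he
    by_cases hne : h e e₀ = 0
    swap
    · exact hpair' e e₀ he0 he he₀0 he₀ hne k
    obtain ⟨z, hz0, hz, h1, h2⟩ : ∃ z, z ≠ 0 ∧ h z z = 0 ∧ h e z ≠ 0 ∧ h z e₀ ≠ 0 := by
      obtain ⟨f, hf, hef, hfe⟩ := hS.exists_iso_partner he he0
      obtain ⟨f', hf', hef', hfe'⟩ := hS.exists_iso_partner he₀ he₀0
      have hf0 : f ≠ 0 := fun e' => by rw [e', hS.zero_right] at hef; exact zero_ne_one hef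
      have hf'0 : f' ≠ 0 := fun e' => by rw [e', hS.zero_right] at hef'; exact zero_ne_one hef'
      by_cases ha : h f e₀ = 0
      swap
      · exact ⟨f, hf0, hf, by rw [hef]; exact one_ne_zero, ha⟩
      by_cases hb : h e f' = 0
      swap
      · exact ⟨f', hf'0, hf', hb, by rw [hfe']; exact one_ne_zero⟩
      obtain ⟨ε, hε0, hε⟩ : ∃ ε : K, ε ≠ 0 ∧ ε ^ q ^ r * h f f' + ε * h f f' ^ q ^ r = 0 := by
        obtain ⟨ζ, hζ0, hζ⟩ := hS.fld.sqK.exists_skew
        by_cases hff : h f f' = 0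
        · exact ⟨ζ, hζ0, by rw [hff, zero_pow hS.fld.sqK.q_ne_zero]; ring⟩
        · exact ⟨ζ * h f f', mul_ne_zero hζ0 hff, by rw [mul_pow, hζ]; ring⟩
      refine ⟨f + ε • f', fun e' => ?_, ?_, ?_, ?_⟩
      · have := congrArg (h e) e'
        rw [hS.add_right, hS.smul_right, hef, hb, mul_zero, add_zero, hS.zero_right] at this
        exact one_ne_zero this
      · rw [hS.add_left, hS.add_right, hS.add_right, hS.smul_left, hS.smul_left, hS.smul_right,
          hS.smul_right, hf, hf', hS.herm f f']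
        linear_combination hε
      · rw [hS.add_right, hS.smul_right, hef, hb, mul_zero, add_zero]; exact one_ne_zero
      · rw [hS.add_left, hS.smul_left, ha, hfe', mul_one, zero_add]; exact hε0
    exact (hpair' e z he0 he hz0 hz h1 k).trans (hpair' z e₀ hz0 hz he₀0 he₀ h2 k)
  let S : Submodule K V := Submodule.span K {e | h e e = 0 ∧ e ≠ 0}
  have hStop : ∀ x, x ∈ S := by
    obtain ⟨e, he0, he⟩ := hS.exists_isotropic
    obtain ⟨f, hf, hef, hfe⟩ := hS.exists_iso_partner he he0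
    have hf0 : f ≠ 0 := fun e' => by rw [e', hS.zero_right] at hef; exact zero_ne_one hef
    have heS : e ∈ S := Submodule.subset_span ⟨he, he0⟩
    have hfS : f ∈ S := Submodule.subset_span ⟨hf, hf0⟩
    intro x
    obtain ⟨w, hwS, hwe, hwf⟩ := hS.hyp_proj he hf hef hfe x
    have hwS' : x - w ∈ S := by
      obtain ⟨a, b, hab⟩ := Submodule.mem_span_pair.1 hwS
      rw [← hab]
      exact S.add_mem (S.smul_mem _ heS) (S.smul_mem _ hfS)
    obtain ⟨a, ha⟩ := hS.fld.sqK.exists_trace (c := - h w w)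
      (by rw [hS.fld.sqK.neg_pow, hS.self_fixed])
    have hv0 : w + a • e + f ≠ 0 := fun e' => by
      have := congrArg (fun y => h y e) e'
      simp only [hS.add_left, hS.smul_left, hwe, he, hfe, mul_zero, add_zero, zero_add,
        hS.zero_left] at this
      exact one_ne_zero this
    have hv : h (w + a • e + f) (w + a • e + f) = 0 := by
      simp only [hS.add_left, hS.add_right, hS.smul_left, hS.smul_right, he, hf, hef, hfe, hwe, hwf,
        hS.zero_swap hwe, hS.zero_swap hwf]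
      linear_combination ha
    have hvS : w + a • e + f ∈ S := Submodule.subset_span ⟨hv, hv0⟩
    have hx : x = (x - w) + ((w + a • e + f) - a • e - f) := by abel
    rw [hx]
    exact S.add_mem hwS' (S.sub_mem (S.sub_mem hvS (S.smul_mem _ heS)) hfS)
  have hspec : ∀ x, ∀ m : K, g (k • m • x) = θ e₀ he₀0 he₀ k • g (m • x) := by
    intro x
    induction hStop x using Submodule.span_induction with
    | mem e he =>
      intro m
      by_cases hm : m = 0
      · simp [hm]
      have h0 : m • e ≠ 0 := smul_ne_zero hm he.2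
      have h1 : h (m • e) (m • e) = 0 := by
        rw [hS.smul_left, hS.smul_right, he.1, mul_zero, mul_zero]
      rw [hθ (m • e) h0 h1, hall]
    | zero => intro m; simp
    | add a b _ _ ha hb =>
      intro m
      rw [smul_add, smul_add, map_add, map_add, smul_add, ha, hb]
    | smul c a _ ha => intro m; rw [smul_smul m c]; exact ha _
  intro x
  have := hspec x 1
  rwa [one_smul] at this

end Setup

end Cfsg.Agent.MaxSub.UnitExt
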