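import Cfsg.Agent.MaxSub.UnitExt.Small

/-!
A maximal intersection yields transvections, hence all of them.
-/

set_option autoImplicit false
set_option linter.style.haveILetI false
set_option linter.unusedSectionVars false

namespace Cfsg.Agent.MaxSub.UnitExt

open Module Cfsg.Agent.Classical.U Cfsg.Agent.MaxSub.ExtField

universe u v w

variable {F : Type u} {K : Type v} {V : Type w} [Field F] [Field K] [Algebra F K] [AddCommGroup V]
  [Module F V] [Module K V] [IsScalarTower F K V] {q r : ℕ}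

namespace Setup

variable {h : V → V → K} {G : Subgroup (V ≃ₗ[F] V)} (hS : Setup q r h G)

/-- The symmetric map of two vectors. -/
noncomputable def bmap (a c : V) : V →ₗ[F] V := (fl hS a).smulRight c + (fl hS c).smulRight a

lemma bmap_apply (a c x : V) :
    bmap hS a c x = tf (F := F) h x a • c + tf (F := F) h x c • a := rfl

include hS

/-- The commutator of the conjugated elation with an elation of the line. -/
lemma delta (D : MaxData hS) {c' : K} (hc' : c' ^ q ^ r = -c') {t : F} (ht : t ^ q = t) :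
    let v := (c' * h D.z₀ D.y) • D.y
    ∃ f : V →ₗ[F] V, Mem G f ∧
      ∀ x, f x = t • (tf (F := F) h x D.d • v - tf (F := F) h x v • D.d) +
        (t * t * tf (F := F) h v D.z₀ * tf (F := F) h x D.d) • D.d := by
  intro v
  obtain ⟨A, hA⟩ : ∃ A : V →ₗ[F] V, ∀ x, A x = D.g (el hS D.w D.c (D.g⁻¹ x)) :=
    ⟨D.g.toLinearMap ∘ₗ el hS D.w D.c ∘ₗ (D.g⁻¹ : V ≃ₗ[F] V).toLinearMap, fun x => rfl⟩
  have hskew : ∀ x z, tf (F := F) h (A x) z = - tf (F := F) h x (A z) := by
    intro x z
    rw [eq_neg_iff_add_eq_zero, hA, hA, tf, tf, ← hS.iso _ (inv_mem D.g_mem),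
      ← hS.iso _ (inv_mem D.g_mem) x, inv_apply_self, inv_apply_self]
    exact hS.el_skew D.w D.c_skew _ _
  have hAA : ∀ x, A (A x) = 0 := fun x => by
    rw [hA, hA, inv_apply_self, el_apply, el_apply, hS.smul_left, D.w_iso, mul_zero, mul_zero,
      zero_smul, map_zero]
  have hline : ∀ l ∈ kline F K D.y, A l = tf (F := F) h l D.z₀ • D.d := fun l hl => by
    rw [hA]; exact D.line l hl
  have hLL : ∀ l ∈ kline F K D.y, ∀ l' ∈ kline F K D.y, tf (F := F) h l l' = 0 :=
    fun l hl l' hl' => by rw [tf, hS.line_iso D.y_iso hl hl', map_zero]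
  obtain ⟨N, hN⟩ : ∃ N : V →ₗ[F] V, ∀ x, N x = el hS D.y c' x := ⟨_, fun x => rfl⟩
  have hNmem : Mem G N := (hS.mem_el D.y_iso hc').congr fun x => (hN x).symm
  have hNL : ∀ x, N x ∈ kline F K D.y := fun x => by
    rw [hN, el_apply]; exact mem_kline.2 ⟨_, rfl⟩
  have hN0 : ∀ l ∈ kline F K D.y, N l = 0 := fun l hl => by
    rw [hN, el_apply, hS.line_iso D.y_iso hl (self_mem_kline _), mul_zero, zero_smul]
  have hNskew : ∀ x z, tf (F := F) h (N x) z = - tf (F := F) h x (N z) := fun x z => by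
    rw [eq_neg_iff_add_eq_zero, hN, hN]; exact hS.el_skew D.y hc' _ _
  have hNz : N D.z₀ = v := by rw [hN, el_apply]
  have hvL : v ∈ kline F K D.y := mem_kline.2 ⟨_, rfl⟩
  have hperp : ∀ x, h (A x + tf (F := F) h x D.d • D.z₀) D.y = 0 := by
    intro x
    refine hS.fld.ext_trace fun k => ?_
    rw [mul_zero, map_zero, mul_comm, ← hS.cj_cj k, mul_comm, ← hS.smul_right]
    show tf (F := F) h (A x + tf (F := F) h x D.d • D.z₀) (k ^ q ^ r • D.y) = 0
    have hl : k ^ q ^ r • D.y ∈ kline F K D.y := mem_kline.2 ⟨_, rfl⟩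
    rw [hS.tf_add_left, hskew, hline _ hl, hS.tf_smul_right, hS.tf_smul_left, ← hS.tf_swap]
    ring
  have hNA : ∀ x, N (A x) = -(tf (F := F) h x D.d) • v := by
    intro x
    have e : N (A x + tf (F := F) h x D.d • D.z₀) = 0 := by
      rw [hN, el_apply, hperp, mul_zero, zero_smul]
    rw [map_add, map_smul, hNz] at e
    rw [neg_smul]
    exact eq_neg_of_add_eq_zero_left e
  have hAN : ∀ x, A (N x) = -(tf (F := F) h x v) • D.d := fun x => by
    rw [hline _ (hNL x), hNskew, hNz]
  have hAv : A v = tf (F := F) h v D.z₀ • D.d := hline v hvL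
  have hAd : A D.d = 0 := by rw [hline _ D.d_mem, D.d_z₀, zero_smul]
  have hAmem : Mem G (t • A) := by
    have hc : (algebraMap F K t * D.c) ^ q ^ r = -(algebraMap F K t * D.c) := by
      rw [mul_pow, D.c_skew, hS.fld.algebraMap_pow, ht, mul_neg]
    refine ((hS.mem_el D.w_iso hc).conj D.g_mem).congr fun x => ?_
    simp only [LinearMap.comp_apply, LinearEquiv.coe_coe, LinearMap.smul_apply, hA, el_apply,
      mul_assoc, ← Algebra.smul_def, smul_mul_assoc, smul_assoc, map_smul]
  obtain ⟨R, hR, hRx⟩ := hAmem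
  obtain ⟨gN, hgN, hgNx⟩ := hNmem
  have hRinv : ∀ x, R⁻¹ x = x - t • A x := fun x => by
    apply R.injective
    rw [self_inv_apply, hRx, map_sub, map_smul, LinearMap.smul_apply, LinearMap.smul_apply, hAA]
    simp
  refine ⟨t • ((fl hS D.d).smulRight v - (fl hS v).smulRight D.d) +
    ((t * t * tf (F := F) h v D.z₀) • fl hS D.d).smulRight D.d, ?_, fun x => rfl⟩
  refine ⟨R * gN * R⁻¹ * gN⁻¹, mul_mem (mul_mem (mul_mem hR hgN) (inv_mem hR)) (inv_mem hgN),
    fun x => ?_⟩
  have hgNinv : gN⁻¹ x = x - N x := by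
    apply gN.injective
    rw [self_inv_apply, hgNx, map_sub, hN0 _ (hNL x), sub_zero, sub_add_cancel]
  simp only [LinearEquiv.mul_apply, hgNinv, hRinv, hgNx, hRx, map_add, map_sub, map_smul, map_neg,
    LinearMap.smul_apply, hAA, hAN, hNA, hAv, hAd, hN0 _ (hNL x), hN0 _ D.d_mem, hN0 v hvL,
    LinearMap.add_apply, LinearMap.sub_apply, map_zero, hline _ (hNL x), hS.tf_add_left,
    LinearMap.smulRight_apply, smul_eq_mul, fl_apply, hNskew x D.z₀, hNz, neg_smul]
  have hdz := hLL _ (hNL x) _ D.d_mem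
  have hvz := hLL _ (hNL x) _ hvL
  simp only [sub_eq_add_neg, hS.tf_add_left, ← neg_one_smul F (N x), hS.tf_smul_left, hdz, hvz,
    mul_zero, add_zero]
  module

/-- A transvection group of an isotropic centre, more than two elements. -/
lemma ctr_of_maxData (D : MaxData hS) (hq : 2 < q) : Ctr hS D.d := by
  classical
  haveI := hS.fld.finite_F
  obtain ⟨t, ht, ht0, ht1⟩ : ∃ t : F, t ^ q = t ∧ t ≠ 0 ∧ t ≠ 1 := by
    by_contra hc
    push Not at hc
    have h1 : Nat.card {c : F // c ^ (q - 1) = 1} ≤ 1 := by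
      refine Finite.card_le_one_iff_subsingleton.2 ⟨fun a b => Subtype.ext ?_⟩
      have h0 : ∀ c : {c : F // c ^ (q - 1) = 1}, (c : F) = 1 := fun c => by
        have hc0 : (c : F) ≠ 0 := fun e => by
          have := c.2
          rw [e, zero_pow (by omega)] at this
          exact zero_ne_one this
        exact hc _ ((hS.fld.hF.fixed_iff hc0).2 c.2) hc0
      rw [h0 a, h0 b]
    rw [hS.fld.hF.card_fixed_units] at h1
    omega
  intro s hs
  obtain ⟨κ, hκ⟩ : ∃ κ, κ = h D.z₀ D.y := ⟨_, rfl⟩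
  have hκ0 : κ ≠ 0 := by
    intro e
    have := D.x₀_z₀
    obtain ⟨a, ha⟩ := mem_kline.1 D.x₀_mem
    rw [← ha, tf, hS.smul_left, hS.zero_swap (hκ.symm.trans e), mul_zero, map_zero] at this
    exact zero_ne_one this
  obtain ⟨c', hc', hct⟩ := hS.fld.exists_skew_trace_ne (mul_ne_zero hκ0 (pow_ne_zero (q ^ r) hκ0))
  have hval : ∀ c : K, tf (F := F) h ((c * h D.z₀ D.y) • D.y) D.z₀ =
      Algebra.trace F K (c * (κ * κ ^ q ^ r)) := fun c => by
    rw [tf, hS.smul_left, hS.herm D.z₀ D.y, hκ, mul_assoc]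
  obtain ⟨T, hT⟩ : ∃ T, T = Algebra.trace F K (c' * (κ * κ ^ q ^ r)) := ⟨_, rfl⟩
  rw [← hT] at hct
  have hTq : T ^ q = -T := by
    rw [hT, ← hS.fld.trace_pow, mul_pow, mul_pow, hS.cj_cj, hc', ← map_neg]
    congr 1
    ring
  obtain ⟨ρ, hρ⟩ : ∃ ρ, ρ = s / ((t * t - t) * T) := ⟨_, rfl⟩
  have hρq : ρ ^ q = ρ := by
    rw [hρ, div_pow, mul_pow, hS.fld.hF.sub_pow, mul_pow, ht, hTq, hs, mul_neg, neg_div_neg_eq]
  have hrc : (algebraMap F K ρ * c') ^ q ^ r = -(algebraMap F K ρ * c') := by
    rw [mul_pow, hc', hS.fld.algebraMap_pow, hρq, mul_neg]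
  have htc : (algebraMap F K (t * ρ) * c') ^ q ^ r = -(algebraMap F K (t * ρ) * c') := by
    rw [mul_pow, hc', hS.fld.algebraMap_pow, mul_pow, ht, hρq, mul_neg]
  obtain ⟨f₁, hf₁, e₁⟩ := hS.delta D hrc ht
  obtain ⟨f₂, hf₂, e₂⟩ := hS.delta D htc (one_pow q)
  obtain ⟨v, hv⟩ : ∃ v, v = (algebraMap F K ρ * c' * h D.z₀ D.y) • D.y := ⟨_, rfl⟩
  have hv' : (algebraMap F K (t * ρ) * c' * h D.z₀ D.y) • D.y = t • v := by
    rw [hv, ← algebraMap_smul K t, smul_smul, map_mul, mul_assoc, mul_assoc, mul_assoc]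
  simp only [← hv, hv', hS.tf_smul_left, hS.tf_smul_right, ht] at e₁ e₂
  have hvL : v ∈ kline F K D.y := hv ▸ mem_kline.2 ⟨_, rfl⟩
  have hLL : ∀ l ∈ kline F K D.y, ∀ l' ∈ kline F K D.y, tf (F := F) h l l' = 0 :=
    fun l hl l' hl' => by rw [tf, hS.line_iso D.y_iso hl hl', map_zero]
  have hmem₂ : ∀ x, f₂ x ∈ kline F K D.y := fun x => by
    rw [e₂]
    exact Submodule.add_mem _ (Submodule.smul_mem _ _ (Submodule.sub_mem _
      (Submodule.smul_mem _ _ (Submodule.smul_mem _ _ hvL)) (Submodule.smul_mem _ _ D.d_mem)))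
      (Submodule.smul_mem _ _ D.d_mem)
  have hz₁ : ∀ l ∈ kline F K D.y, f₁ l = 0 := fun l hl => by
    rw [e₁, hLL l hl _ D.d_mem, hLL l hl _ hvL]
    simp
  have hz₂ : ∀ l ∈ kline F K D.y, f₂ l = 0 := fun l hl => by
    rw [e₂, hLL l hl _ D.d_mem, hLL l hl _ hvL]
    simp
  have hkill : ∀ x, f₂ (f₂ x) = 0 := fun x => hz₂ _ (hmem₂ x)
  have hkill' : ∀ x, f₁ ((-f₂) x) = 0 := fun x => by
    rw [LinearMap.neg_apply, map_neg, hz₁ _ (hmem₂ x), neg_zero]
  refine (hf₁.add (hf₂.neg hkill) hkill').congr fun x => ?_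
  have hvz : tf (F := F) h v D.z₀ = ρ * T := by
    rw [hv, hval, mul_assoc, hS.fld.trace_smul, ← hT]
  rw [LinearMap.add_apply, LinearMap.neg_apply, e₁, e₂, LinearMap.smul_apply, tau_apply, hvz]
  have hne : (t * t - t) * T ≠ 0 := by
    rw [show t * t - t = t * (t - 1) by ring]
    exact mul_ne_zero (mul_ne_zero ht0 (sub_ne_zero.2 ht1)) hct
  have hs' : s = ρ * ((t * t - t) * T) := by rw [hρ, div_mul_cancel₀ _ hne]
  rw [hs']
  module

/-- A transvection group of an isotropic centre, two elements. -/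
lemma ctr_of_maxData_two (D : MaxData hS) (hq : q = 2) : Ctr hS D.d := by
  classical
  subst hq
  haveI := hS.fdV
  haveI := hS.fld.fd
  haveI := hS.fld.finite_F
  haveI := hS.fld.finite_K
  haveI := Fintype.ofFinite K
  haveI := Fintype.ofFinite F
  have hr3 := hS.fld.three_le
  have hF := hS.fld.hF
  have hch2 : (2 : F) = 0 := by
    by_contra h2
    have h4 : Nat.card F = 4 := hF.2
    rw [Nat.card_eq_fintype_card] at h4
    have hcast := Nat.cast_card_eq_zero F
    rw [h4] at hcast
    push_cast at hcast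
    exact h2 (mul_self_eq_zero.1 (by linear_combination hcast))
  have hch2K : (2 : K) = 0 := by rw [← map_ofNat (algebraMap F K) 2, hch2, map_zero]
  have hnegF : ∀ t : F, -t = t := fun t => by linear_combination -t * hch2
  have hnegK : ∀ t : K, -t = t := fun t => by linear_combination -t * hch2K
  have hnegV : ∀ x : V, -x = x := fun x => by rw [← neg_one_smul F, hnegF, one_smul]
  obtain ⟨ω, hω⟩ := hF.exists_trace (c := (1 : F)) (one_pow 2)
  obtain ⟨κ, hκ⟩ := mem_kline.1 D.d_mem
  have hκ0 : κ ≠ 0 := fun e => D.d_ne (by rw [← hκ, e, zero_smul])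
  obtain ⟨ν, hν⟩ : ∃ ν, ν = h D.z₀ D.y := ⟨_, rfl⟩
  have hν0 : ν ≠ 0 := by
    intro e
    have := D.x₀_z₀
    obtain ⟨a, ha⟩ := mem_kline.1 D.x₀_mem
    rw [← ha, tf, hS.smul_left, hS.zero_swap (hν.symm.trans e), mul_zero, map_zero] at this
    exact zero_ne_one this
  -- maps of `V` into the line vanishing on it
  let 𝔄 : AddSubgroup (V →ₗ[F] V) :=
    { carrier := {f | Mem G f ∧ (∀ x, f x ∈ kline F K D.y) ∧ ∀ l ∈ kline F K D.y, f l = 0}
      add_mem' := fun {a b} ha hb => ⟨ha.1.add hb.1 fun x => ha.2.2 _ (hb.2.1 x),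
        fun x => Submodule.add_mem _ (ha.2.1 x) (hb.2.1 x),
        fun l hl => by rw [LinearMap.add_apply, ha.2.2 l hl, hb.2.2 l hl, add_zero]⟩
      zero_mem' := ⟨mem_zero, fun x => Submodule.zero_mem _, fun l _ => rfl⟩
      neg_mem' := fun {a} ha => ⟨ha.1.neg fun x => ha.2.2 _ (ha.2.1 x),
        fun x => Submodule.neg_mem _ (ha.2.1 x),
        fun l hl => by rw [LinearMap.neg_apply, ha.2.2 l hl, neg_zero]⟩ }
  obtain ⟨b, hb⟩ : ∃ b : K → K → (V →ₗ[F] V) ⧸ 𝔄,
      ∀ a c, b a c = QuotientAddGroup.mk' 𝔄 (bmap hS (a • D.y) (c • D.y)) := ⟨_, fun a c => rfl⟩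
  have badd : ∀ a a' c, b (a + a') c = b a c + b a' c := fun a a' c => by
    rw [hb, hb, hb, ← map_add]
    congr 1
    refine LinearMap.ext fun x => ?_
    simp only [LinearMap.add_apply, bmap_apply, add_smul, hS.tf_add_right, smul_add]
    abel
  have bsymm : ∀ a c, b a c = b c a := fun a c => by
    rw [hb, hb]
    congr 1
    exact LinearMap.ext fun x => by rw [bmap_apply, bmap_apply, add_comm]
  have badd' : ∀ a c c', b a (c + c') = b a c + b a c' := fun a c c' => by
    rw [bsymm, badd, bsymm c, bsymm c']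
  have b0 : ∀ c, b 0 c = 0 := fun c => by
    have e := badd 0 0 c
    rw [add_zero] at e
    exact left_eq_add.1 e
  have btwo : ∀ a c, b a c + b a c = 0 := fun a c => by
    rw [← badd]
    rw [show a + a = 0 by linear_combination a * hch2K, b0]
  have bF : ∀ (t : F) a c,
      b (algebraMap F K t * a) c = b a (algebraMap F K (t ^ 2) * c) := fun t a c => by
    rw [hb, hb]
    congr 1
    refine LinearMap.ext fun x => ?_
    simp only [bmap_apply, mul_smul, algebraMap_smul, hS.tf_smul_right, hF.pow_pow]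
    module
  have hinv : ∀ l ∈ kline F K D.y, ∀ l' ∈ kline F K D.y, tf (F := F) h l l' = 0 :=
    fun l hl l' hl' => by rw [tf, hS.line_iso D.y_iso hl hl', map_zero]
  have bzero : ∀ a c, Mem G (bmap hS (a • D.y) (c • D.y)) → b a c = 0 := fun a c hm => by
    rw [hb]
    refine (QuotientAddGroup.eq_zero_iff _).2 ⟨hm, fun x => ?_, fun l hl => ?_⟩
    · rw [bmap_apply]
      exact Submodule.add_mem _ (Submodule.smul_mem _ _ (mem_kline.2 ⟨c, rfl⟩))
        (Submodule.smul_mem _ _ (mem_kline.2 ⟨a, rfl⟩))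
    · rw [bmap_apply, hinv l hl _ (mem_kline.2 ⟨a, rfl⟩), hinv l hl _ (mem_kline.2 ⟨c, rfl⟩),
        zero_smul, zero_smul, add_zero]
  -- scaled commutators
  have hbase : ∀ s : K, s ^ 2 ^ r = s → Algebra.trace F K (s * (ν * ν ^ 2 ^ r)) = 0 →
      ∀ l : K, b (s * ν / κ * l) l = 0 := by
    intro s hs hst
    obtain ⟨v, hv⟩ : ∃ v, v = (s * h D.z₀ D.y) • D.y := ⟨_, rfl⟩
    have hvz : tf (F := F) h v D.z₀ = 0 := by
      rw [hv, tf, hS.smul_left, hS.herm D.z₀ D.y, ← hν, mul_assoc]
      exact hst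
    obtain ⟨f, hf, hfx⟩ := hS.delta D (c' := s) (by rw [hs, hnegK]) (t := (1 : F)) (one_pow 2)
    simp only [← hv, hvz, one_smul, mul_zero, zero_mul, zero_smul, add_zero] at hfx
    have hB : Mem G (bmap hS v D.d) := hf.congr fun x => by
      rw [hfx, bmap_apply, sub_eq_add_neg, hnegV, add_comm]
    have hmem : ∀ μ : K, μ ≠ 0 → (3 ≤ finrank K V ∨ Algebra.norm F μ = 1) →
        b (μ * (s * ν)) (μ * κ) = 0 := by
      intro μ hμ hk
      obtain ⟨g, hg, hgK, hgy⟩ := hS.exists_scale D.y_iso D.y_ne hμ hk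
      refine bzero _ _ ((hB.conj hg).congr fun x => ?_)
      have hgv : g v = (μ * (s * ν)) • D.y := by
        rw [hv, hgK, hgy, smul_smul, hν, mul_comm μ]
      have hgd : g D.d = (μ * κ) • D.y := by
        rw [← hκ, hgK, hgy, smul_smul, mul_comm μ]
      have hi : ∀ z, tf (F := F) h (g⁻¹ x) z = tf (F := F) h x (g z) := fun z => by
        rw [tf, ← hS.iso g hg, self_inv_apply]; rfl
      simp only [LinearMap.comp_apply, LinearEquiv.coe_coe, bmap_apply, map_add, map_smul, hi,
        hgv, hgd]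
    intro l
    by_cases hl : l = 0
    · rw [hl, mul_zero, b0]
    obtain ⟨μ, hμdef⟩ : ∃ μ, μ = l / κ := ⟨_, rfl⟩
    have hμ : μ ≠ 0 := hμdef ▸ div_ne_zero hl hκ0
    rw [show s * ν / κ * l = μ * (s * ν) by rw [hμdef]; ring,
      show l = μ * κ by rw [hμdef, div_mul_cancel₀ _ hκ0]]
    by_cases hk : 3 ≤ finrank K V
    · exact hmem μ hμ (Or.inl hk)
    have hr' : r ≠ 3 := fun e => (hS.small.resolve_right fun h4 => hk (by omega)) ⟨rfl, e⟩
    have h3 : ∀ x : F, x ≠ 0 → x ^ 3 = 1 := fun x hx => by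
      have h4 : Fintype.card F = 4 := by rw [← Nat.card_eq_fintype_card]; exact hF.2
      simpa [h4] using FiniteField.pow_card_sub_one_eq_one x hx
    obtain ⟨t, htdef⟩ : ∃ t, t = Algebra.norm F μ ^ r := ⟨_, rfl⟩
    have hNμ : Algebra.norm F μ ≠ 0 := (Algebra.norm_ne_zero_iff).2 hμ
    have ht0 : t ≠ 0 := htdef ▸ pow_ne_zero _ hNμ
    obtain ⟨j, hj⟩ : ∃ j, r * r = 3 * j + 1 := by
      have hm : r % 3 ≠ 0 := fun e => hr' (((Nat.prime_dvd_prime_iff_eq Nat.prime_three hS.fld.prime).1
        (Nat.dvd_of_mod_eq_zero e)).symm)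
      refine ⟨r * r / 3, ?_⟩
      have : r * r % 3 = 1 := by
        rw [Nat.mul_mod]
        rcases (by omega : r % 3 = 1 ∨ r % 3 = 2) with e | e <;> rw [e]
      omega
    have htr : t ^ r = Algebra.norm F μ := by
      rw [htdef, ← pow_mul, hj, pow_succ, pow_mul, h3 _ hNμ, one_pow, one_mul]
    obtain ⟨μ', hμ'⟩ : ∃ μ', μ' = μ / algebraMap F K t := ⟨_, rfl⟩
    have htK : algebraMap F K t ≠ 0 := by simpa using ht0
    have hμμ : μ = algebraMap F K t * μ' := by rw [hμ', mul_div_cancel₀ _ htK]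
    have hN : Algebra.norm F μ' = 1 := by
      have e := congrArg (Algebra.norm F) hμμ
      rw [map_mul, Algebra.norm_algebraMap, hS.fld.rk, htr] at e
      exact (mul_eq_left₀ hNμ).1 e.symm
    rw [hμμ, mul_assoc (algebraMap F K t) μ' (s * ν), mul_assoc (algebraMap F K t) μ' κ, bF,
      ← mul_assoc (algebraMap F K (t ^ 2)), ← map_mul, ← pow_succ, h3 t ht0, map_one, one_mul]
    exact hmem μ' (fun e => by rw [e, mul_zero] at hμμ; exact hμ hμμ) (Or.inr hN)
  -- self-adjoint multipliers form a subfield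
  have hSfin : ∀ u : K, u ≠ 0 → u⁻¹ = u ^ (Fintype.card K - 2) := fun u hu => by
    have hc := Fintype.one_lt_card (α := K)
    refine inv_eq_of_mul_eq_one_right ?_
    rw [← pow_succ', show Fintype.card K - 2 + 1 = Fintype.card K - 1 by omega,
      FiniteField.pow_card_sub_one_eq_one u hu]
  let M : Submonoid K :=
    { carrier := {u | ∀ a c, b (u * a) c = b a (u * c)}
      mul_mem' := fun {u u'} hu hu' a c => by
        rw [mul_assoc, hu, hu', ← mul_assoc, mul_comm u' u]
      one_mem' := fun a c => by rw [one_mul, one_mul] }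
  let S : Subfield K :=
    { M with
      add_mem' := fun {u u'} hu hu' a c => by
        rw [add_mul, add_mul, badd, badd', hu, hu']
      zero_mem' := fun a c => by rw [zero_mul, zero_mul, b0, bsymm, b0]
      neg_mem' := fun {u} hu => by
        show -u ∈ M
        rw [hnegK]
        exact hu
      inv_mem' := fun u hu => by
        show u⁻¹ ∈ M
        by_cases h0 : u = 0
        · rw [h0, inv_zero]
          intro a c
          rw [zero_mul, zero_mul, b0, bsymm, b0]
        · rw [hSfin u h0]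
          exact M.pow_mem hu _ }
  have hUS : ∀ s : K, s ^ 2 ^ r = s → Algebra.trace F K (s * (ν * ν ^ 2 ^ r)) = 0 →
      s * ν / κ ∈ S := by
    intro s hs hst a c
    have e1 := hbase s hs hst (a + c)
    rw [mul_add, badd, badd', badd', hbase s hs hst a, hbase s hs hst c, zero_add, add_zero,
      bsymm (s * ν / κ * c) a] at e1
    have e2 := btwo a (s * ν / κ * c)
    exact add_right_cancel (e1.trans e2.symm)
  -- a multiplier off the prime field
  obtain ⟨u, huS, hu0, hu1⟩ : ∃ u ∈ S, u ≠ 0 ∧ u ≠ 1 := by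
    obtain ⟨P, hP⟩ : ∃ P, P = ν * ν ^ 2 ^ r := ⟨_, rfl⟩
    have hPf : P ^ 2 ^ r = P := by rw [hP, mul_pow, hS.cj_cj, mul_comm]
    let T : Submodule F K :=
      LinearMap.ker ((Algebra.trace F K) ∘ₗ LinearMap.mulRight F P)
    have hTmem : ∀ m, m ∈ T ↔ Algebra.trace F K (m * P) = 0 := fun m => LinearMap.mem_ker
    have hTdim : r ≤ finrank F T + 1 := by
      have e := LinearMap.finrank_range_add_finrank_ker
        ((Algebra.trace F K) ∘ₗ LinearMap.mulRight F P)
      have e' := (LinearMap.range ((Algebra.trace F K) ∘ₗ LinearMap.mulRight F P)).finrank_le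
      rw [Module.finrank_self] at e'
      rw [hS.fld.rk] at e
      show r ≤ finrank F (LinearMap.ker _) + 1
      omega
    have hspan : ∀ X : Submodule F K, finrank F X < finrank F T →
        ∃ s : K, s ^ 2 ^ r = s ∧ Algebra.trace F K (s * P) = 0 ∧ s ∉ X := by
      intro X hX
      by_contra hc
      push Not at hc
      refine absurd (Submodule.finrank_mono (?_ : T ≤ X)) (not_le.2 hX)
      intro m hm
      obtain ⟨a, c, t, ht, ha, hc', rfl⟩ := hS.fld.decomp m
      rw [hTmem, add_mul, map_add, mul_assoc, hS.fld.trace_smul] at hm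
      have hA : ∀ {s : K}, s ^ 2 ^ r = s →
          Algebra.trace F K (s * P) ^ 2 = Algebra.trace F K (s * P) := fun hs => by
        rw [← hS.fld.trace_pow, mul_pow, hs, hPf]
      have hm' := congrArg (· ^ 2) hm
      simp only [hF.add_pow, mul_pow, hA ha, hA hc', zero_pow two_ne_zero] at hm'
      have hcP : Algebra.trace F K (c * P) = 0 :=
        (mul_eq_zero.1 (show (t - t ^ 2) * Algebra.trace F K (c * P) = 0 by
          linear_combination hm - hm')).resolve_left (sub_ne_zero.2 (Ne.symm ht))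
      rw [hcP, mul_zero, add_zero] at hm
      rw [← Algebra.smul_def]
      exact X.add_mem (hc a ha hm) (X.smul_mem t (hc c hc' hcP))
    obtain ⟨s₁, hs₁, ht₁, hn₁⟩ := hspan ⊥ (by rw [finrank_bot]; omega)
    have hs₁0 : s₁ ≠ 0 := fun e => hn₁ (by rw [e]; exact Submodule.zero_mem _)
    obtain ⟨s₂, hs₂, ht₂, hn₂⟩ := hspan (F ∙ s₁) (by
      rw [finrank_span_singleton hs₁0]; omega)
    have hne : s₂ ≠ s₁ := fun e => hn₂ (by rw [e]; exact Submodule.mem_span_singleton_self s₁)
    have hs₂0 : s₂ ≠ 0 := fun e => hn₂ (by rw [e]; exact Submodule.zero_mem _)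
    rw [hP] at ht₁ ht₂
    by_cases h1 : s₁ * ν / κ = 1
    · refine ⟨_, hUS s₂ hs₂ ht₂, div_ne_zero (mul_ne_zero hs₂0 hν0) hκ0, fun e => hne ?_⟩
      rw [← h1, div_left_inj' hκ0] at e
      exact mul_right_cancel₀ hν0 e
    · exact ⟨_, hUS s₁ hs₁ ht₁, div_ne_zero (mul_ne_zero hs₁0 hν0) hκ0, h1⟩
  have hall : ∀ a c, b a c = 0 := by
    haveI := Fintype.ofFinite S
    haveI : CharP S 2 := (CharP.charP_iff_prime_eq_zero Nat.prime_two).2 (Subtype.ext hch2K)
    obtain ⟨m, -, hm⟩ := FiniteField.card S 2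
    have hcK : Fintype.card K = 2 ^ (2 * r) := by
      rw [← Nat.card_eq_fintype_card, hS.fld.sqK.2, ← pow_mul, mul_comm]
    have hm2r : (m : ℕ) ∣ 2 * r := by
      have e := Module.card_eq_pow_finrank (K := S) (V := K)
      rw [hm, hcK, ← pow_mul] at e
      exact ⟨_, Nat.pow_right_injective le_rfl e⟩
    have hroots : ∀ y : K, y ^ 2 ^ (m : ℕ) = y → y ∈ S := by
      intro y hy
      by_contra hyS
      have hN : 1 < 2 ^ (m : ℕ) := Nat.one_lt_two_pow m.pos.ne'
      have hne := FiniteField.X_pow_card_sub_X_ne_zero K hN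
      let R := (Polynomial.X ^ 2 ^ (m : ℕ) - Polynomial.X : Polynomial K).roots.toFinset
      have hsub : insert y ((Finset.univ : Finset S).map ⟨Subtype.val, Subtype.val_injective⟩) ⊆ R := by
        intro x hx
        rcases Finset.mem_insert.1 hx with rfl | hx
        · simp [R, hne, hy]
        · obtain ⟨z, -, rfl⟩ := Finset.mem_map.1 hx
          have e : (z : K) ^ 2 ^ (m : ℕ) = z := by
            rw [← hm, ← SubmonoidClass.coe_pow, FiniteField.pow_card]
          simp [R, hne, e]
      have h1 := Finset.card_le_card hsub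
      rw [Finset.card_insert_of_notMem (by simp [hyS]), Finset.card_map, Finset.card_univ, hm] at h1
      have h2 : R.card ≤ 2 ^ (m : ℕ) := by
        refine (Multiset.toFinset_card_le _).trans ((Polynomial.card_roots' _).trans ?_)
        rw [FiniteField.X_pow_card_sub_X_natDegree_eq K hN]
      omega
    rcases Nat.even_or_odd (m : ℕ) with ⟨i, hi⟩ | hodd
    · -- the field of four elements is self-adjoint
      have hω4 : ω ^ 4 = ω := by
        rw [show (4 : ℕ) = Fintype.card F by rw [← Nat.card_eq_fintype_card]; exact hF.2.symm]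
        exact FiniteField.pow_card ω
      have hωS : algebraMap F K ω ∈ S := by
        refine hroots _ ?_
        rw [← map_pow, hi, ← two_mul, pow_mul]
        congr 1
        clear hi
        induction i with
        | zero => simp
        | succ i ih => rw [pow_succ, pow_mul, ih]; exact hω4
      intro a c
      have e1 : b (algebraMap F K ω * a) c = b a (algebraMap F K ω * c) := hωS a c
      rw [bF] at e1
      have e2 : b a ((algebraMap F K (ω ^ 2) + algebraMap F K ω) * c) = 0 := by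
        rw [add_mul, badd', e1, btwo]
      rwa [← map_add, add_comm, hω, map_one, one_mul] at e2
    · -- the fixed field is self-adjoint
      have hmr : (m : ℕ) ∣ r := (Nat.Coprime.dvd_mul_left
        (Nat.coprime_two_right.2 hodd)).1 hm2r
      rcases (Nat.dvd_prime hS.fld.prime).1 hmr with h1 | h1
      · exfalso
        have hcard : (3 : ℕ) ≤ Fintype.card S := by
          have : ({⟨0, S.zero_mem⟩, ⟨1, S.one_mem⟩, ⟨u, huS⟩} : Finset S).card = 3 := by
            rw [Finset.card_eq_three]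
            exact ⟨⟨0, S.zero_mem⟩, ⟨1, S.one_mem⟩, ⟨u, huS⟩, by simp, by simpa using hu0.symm,
              by simpa using hu1.symm, rfl⟩
          exact this ▸ Finset.card_le_univ _
        rw [hm, h1] at hcard
        omega
      have hK0 : ∀ z : K, z ^ 2 ^ r = z → z ∈ S := fun z hz => hroots z (by rw [h1]; exact hz)
      have hz : ∀ z a c, b (z * a) c = b a (z ^ 2 ^ r * c) := by
        intro z a c
        obtain ⟨x, y, t, -, hx, hy, rfl⟩ := hS.fld.decomp z
        rw [hS.fld.sqK.add_pow, mul_pow, hx, hy, hS.fld.algebraMap_pow, add_mul, add_mul, badd,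
          badd', mul_assoc, mul_assoc, hK0 x hx a c, bF, hK0 y hy a (algebraMap F K (t ^ 2) * c),
          mul_left_comm y]
      have hone : ∀ e, b 1 e = 0 := by
        intro e
        let B := Module.finBasis F K
        have hrepr : ∀ x i, Algebra.trace F K (x * B.traceDual i) = B.repr x i := by
          intro x i
          conv_lhs => rw [← B.sum_repr x, Finset.sum_mul, map_sum]
          rw [Finset.sum_eq_single i]
          · rw [Algebra.smul_mul_assoc, map_smul, mul_comm, B.trace_traceDual_mul, if_pos rfl,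
              smul_eq_mul, mul_one]
          · intro j _ hj
            rw [Algebra.smul_mul_assoc, map_smul, mul_comm, B.trace_traceDual_mul, if_neg hj,
              smul_zero]
          · simp
        have hdual : ∀ x, ∑ i, Algebra.trace F K (x * B i) • B.traceDual i = x := fun x => by
          conv_rhs => rw [← B.traceDual.sum_repr x]
          exact Finset.sum_congr rfl fun i _ => by
            rw [Module.Basis.traceDual_repr_apply, Algebra.traceForm_apply]
        have hsum1 : ∑ i, B.traceDual i * B i = 1 := hS.fld.ext_trace fun k => by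
          rw [Finset.mul_sum, map_sum, mul_one, Algebra.trace_eq_matrix_trace B k, Matrix.trace]
          exact Finset.sum_congr rfl fun i _ => by
            rw [Matrix.diag_apply, Algebra.leftMulMatrix_eq_repr_mul, ← hrepr, mul_assoc,
              mul_comm (B i) (B.traceDual i)]
        obtain ⟨c, hc⟩ : ∃ c, c = e + e ^ 2 ^ r := ⟨_, rfl⟩
        have hel : el hS D.y c ∈ 𝔄 := by
          refine ⟨hS.mem_el D.y_iso (by
            rw [hc, hS.fld.sqK.trace_fixed, hnegK]), fun x => ?_, fun l hl => ?_⟩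
          · rw [el_apply]; exact mem_kline.2 ⟨_, rfl⟩
          · rw [el_apply, hS.line_iso D.y_iso hl (self_mem_kline _), mul_zero, zero_smul]
        have hdec : el hS D.y c =
            ∑ i, bmap hS ((B.traceDual i ^ 2 ^ r) • D.y) ((e * B i) • D.y) := by
          refine LinearMap.ext fun x => ?_
          obtain ⟨z, hz'⟩ : ∃ z, z = h x D.y := ⟨_, rfl⟩
          have t1 : ∀ i, tf (F := F) h x ((B.traceDual i ^ 2 ^ r) • D.y) = B.repr z i := fun i => by
            rw [tf, hS.smul_right, hS.cj_cj, ← hz', mul_comm, hrepr]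
          have t2 : ∀ i, tf (F := F) h x ((e * B i) • D.y) =
              Algebra.trace F K ((e ^ 2 ^ r * z) ^ 2 ^ r * B i) ^ 2 := fun i => by
            rw [tf, hS.smul_right, ← hz', ← hS.fld.trace_pow, mul_pow ((e ^ 2 ^ r * z) ^ 2 ^ r),
              hS.cj_cj]
            congr 1
            rw [mul_pow]
            ring
          rw [el_apply, ← hz', hc, LinearMap.sum_apply]
          have hsm : ∀ (a : F) (k : K), a • (k • D.y) = (algebraMap F K a * k) • D.y := fun a k => by
            rw [← smul_smul, algebraMap_smul]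
          simp only [bmap_apply, t1, t2, Finset.sum_add_distrib, hsm, ← Finset.sum_smul]
          rw [← add_smul]
          congr 1
          have e1 : ∑ i, algebraMap F K (B.repr z i) * (e * B i) = e * z := by
            conv_rhs => rw [← B.sum_repr z, Finset.mul_sum]
            exact Finset.sum_congr rfl fun i _ => by rw [Algebra.smul_def]; ring
          have e2 : ∑ i, algebraMap F K (Algebra.trace F K ((e ^ 2 ^ r * z) ^ 2 ^ r * B i) ^ 2) *
              B.traceDual i ^ 2 ^ r = e ^ 2 ^ r * z := by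
            conv_rhs => rw [← hS.cj_cj (e ^ 2 ^ r * z),
              ← hdual ((e ^ 2 ^ r * z) ^ 2 ^ r), hS.fld.sqK.sum_pow]
            exact Finset.sum_congr rfl fun i _ => by
              rw [Algebra.smul_def, ← hS.fld.algebraMap_pow, ← mul_pow]
          rw [e1, e2]
          ring
        have h0 : QuotientAddGroup.mk' 𝔄 (el hS D.y c) = 0 := (QuotientAddGroup.eq_zero_iff _).2 hel
        rw [hdec, map_sum] at h0
        simp only [← hb] at h0
        have e3 : ∀ i, b (B.traceDual i ^ 2 ^ r) (e * B i) = b 1 (B.traceDual i * (e * B i)) :=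
          fun i => by
            conv_lhs => rw [← mul_one (B.traceDual i ^ 2 ^ r)]
            rw [hz, hS.cj_cj]
        simp only [e3] at h0
        let φ : K →+ (V →ₗ[F] V) ⧸ 𝔄 := AddMonoidHom.mk' (b 1) (badd' 1)
        have e4 : φ (∑ i, B.traceDual i * (e * B i)) = 0 := by rw [map_sum]; exact h0
        rw [show ∑ i, B.traceDual i * (e * B i) = e by
          conv_rhs => rw [← mul_one e, ← hsum1, Finset.mul_sum]
          exact Finset.sum_congr rfl fun i _ => by ring] at e4
        exact e4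
      intro a c
      rw [show a = a * 1 by rw [mul_one], hz, hone]
  intro s hs
  have hs01 : s = 0 ∨ s = 1 := by
    rw [hnegF] at hs
    rcases eq_or_ne s 0 with h0 | h0
    · exact Or.inl h0
    · exact Or.inr (mul_left_cancel₀ h0 (by linear_combination hs))
  rcases hs01 with rfl | rfl
  · exact mem_zero.congr fun x => by simp
  have h0 := hall κ (algebraMap F K ω * κ)
  rw [hb] at h0
  refine ((QuotientAddGroup.eq_zero_iff _).1 h0).1.congr fun x => ?_
  rw [bmap_apply, LinearMap.smul_apply, one_smul, tau_apply, mul_smul, algebraMap_smul, hκ,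
    hS.tf_smul_right, smul_smul, ← add_smul]
  congr 1
  linear_combination (tf (F := F) h x D.d) * hω

/-- An overgroup moving the spread contains all transvections. -/
theorem all_transvections
    (hnot : ∃ g ∈ G, ∃ w : V, w ≠ 0 ∧ h w w = 0 ∧
      ∀ y, h y y = 0 → (kline F K w).map g.toLinearMap ≠ kline F K y)
    {v : V} (hv : tf (F := F) h v v = 0) {t : F} (ht : t ^ q = -t) : Mem G (t • tau hS v) := by
  rcases eq_or_ne v 0 with rfl | hv0
  · exact mem_zero.congr fun x => by simp [tau_apply]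
  obtain ⟨d, hd, hd0, hC⟩ : ∃ d, h d d = 0 ∧ d ≠ 0 ∧ Ctr hS d := by
    have of_data : MaxData hS → ∃ d, h d d = 0 ∧ d ≠ 0 ∧ Ctr hS d := fun D => by
      refine ⟨D.d, hS.line_iso D.y_iso D.d_mem D.d_mem, D.d_ne, ?_⟩
      rcases Nat.lt_or_ge 2 q with hq | hq
      · exact hS.ctr_of_maxData D hq
      · exact hS.ctr_of_maxData_two D (le_antisymm hq hS.fld.hF.one_lt)
    by_cases hgood : ¬ (q = 2 ∧ r = 3) ∨ 4 ≤ finrank K V
    · obtain ⟨D⟩ := hS.exists_maxData hnot (Or.inl hgood)
      exact of_data D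
    push Not at hgood
    have hk : finrank K V = 3 := by
      have := hS.small.resolve_left fun hn => hn hgood.1
      omega
    by_cases horth : ∀ g ∈ G, ∀ w y : V, w ≠ 0 → h w w = 0 → y ≠ 0 → h y y = 0 →
        (kline F K w).map g.toLinearMap ≠ kline F K y → ∃ m : K, h (g⁻¹ (m • y)) w ≠ 0
    · obtain ⟨D⟩ := hS.exists_maxData hnot (Or.inr horth)
      exact of_data D
    push Not at horth
    obtain ⟨g, hg, w, y, hw, hww, hy, hyy, hne, hor⟩ := horth
    exact hS.ctr_of_orth_three hgood.1.1 hgood.1.2 hk hg hw hww hy hyy hne hor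
  exact hS.ctr_all hd hd0 hC hv0 hv t ht

/-- The dichotomy for overgroups. -/
theorem dichotomy (hnot : ∃ g ∈ G, ¬ ∀ k : K, ∃ k' : K, ∀ x, g (k • x) = k' • g x)
    {v : V} (hv : tf (F := F) h v v = 0) {t : F} (ht : t ^ q = -t) : Mem G (t • tau hS v) := by
  refine hS.all_transvections ?_ hv ht
  obtain ⟨g, hg, hns⟩ := hnot
  by_contra hc
  push Not at hc
  refine hns (hS.semilinear_of_lines g fun w hw hww => ?_)
  obtain ⟨y, -, e⟩ := hc g hg w hw hww
  exact ⟨y, e⟩

end Setup

end Cfsg.Agent.MaxSub.UnitExt
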