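import Cfsg.Agent.MaxSub.UnitExt.Main
import Cfsg.Agent.MaxSub.FieldSub
import Cfsg.Agent.ClassicalMax.UnitaryProper

/-!
The normaliser of an adjoint-closed extension field of odd prime degree is maximal in the special
unitary group.
-/

set_option autoImplicit false
set_option linter.style.haveILetI false

namespace Cfsg.Agent.MaxSub.UnitExt

open Matrix Cfsg.Geo Module Cfsg.Agent.Classical.U Cfsg.Agent.ClassicalMax
open scoped MatrixGroups Matrix

theorem suGL_extField_maximal_aux {F : Type*} [Field F] [Fintype F] {n q r : ℕ}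
    (hF : Fintype.card F = q ^ 2) (hr : r.Prime) (hro : Odd r) (hlt : r < n)
    (hsmall : ¬ (q = 2 ∧ r = 3) ∨ 3 * r ≤ n) {K : Type*} [Field K] [Finite K] [Algebra F K]
    (hfr : Module.finrank F K = r) (ψ : K →ₐ[F] Matrix (Fin n) (Fin n) F)
    (K₀ : Subalgebra F (Matrix (Fin n) (Fin n) F)) (hψ : ∀ x, x ∈ K₀ ↔ ∃ c, ψ c = x)
    (hK : IsFieldSubalgebra r K₀) (hac : IsAdjointClosedFor (Cfsg.hermForm n F q) K₀) :
    IsMaximalIn (Cfsg.GU n F q ⊓ specialLinear (Fin n) F)
      (subalgebraNormalizer K₀ ⊓ (Cfsg.GU n F q ⊓ specialLinear (Fin n) F)) := by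
  classical
  have hsq : SqField F q := sqField_of_fintype hF
  have D : FD F K q r := ⟨hsq, hfr, hr, hro⟩
  have hr3 := D.three_le
  letI : Module K (Fin n → F) := Module.compHom (Fin n → F)
    ((Matrix.toLinAlgEquiv' : Matrix (Fin n) (Fin n) F ≃ₐ[F] _).toAlgHom.comp ψ).toRingHom
  have hsmul : ∀ (c : K) (v : Fin n → F), c • v = ψ c *ᵥ v := fun c v => rfl
  haveI : IsScalarTower F K (Fin n → F) := ⟨fun a c v => by
    rw [hsmul, hsmul, map_smul, Matrix.smul_mulVec]⟩
  haveI : FiniteDimensional F K := Module.finite_of_finrank_pos (hfr ▸ hr.pos)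
  haveI : FiniteDimensional K (Fin n → F) := Module.Finite.of_restrictScalars_finite F K _
  have hn : r * finrank K (Fin n → F) = n := by
    have h := Module.finrank_mul_finrank F K (Fin n → F)
    rwa [hfr, Module.finrank_fin_fun] at h
  have hdim : 2 ≤ finrank K (Fin n → F) := by
    by_contra hc
    have := Nat.mul_le_mul_left r (show finrank K (Fin n → F) ≤ 1 by omega)
    omega
  have hdim3 : ¬ (q = 2 ∧ r = 3) ∨ 3 ≤ finrank K (Fin n → F) := hsmall.imp id fun h3 => by
    by_contra hc
    have := Nat.mul_le_mul_left r (show finrank K (Fin n → F) ≤ 2 by omega)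
    omega
  have hsep : ∀ x y : Fin n → F, (∀ u, herm q u x = herm q u y) → x = y := fun x y h =>
    sub_eq_zero.1 (hsq.eq_zero_of_herm _ fun u => by
      rw [← hsq.herm_symm, hsq.herm_sub_right, h, sub_self, zero_pow hsq.q_ne_zero])
  -- the adjoint is conjugation
  have hadj0 : ∀ c : K, ∃ c' : K, ∀ u v : Fin n → F, herm q (c • u) v = herm q u (c' • v) := fun c => by
    obtain ⟨k', hk', he⟩ := hac _ ((hψ _).2 ⟨c, rfl⟩)
    obtain ⟨c', rfl⟩ := (hψ _).1 hk'
    exact ⟨c', fun u v => by rw [hsmul, hsmul]; exact he u v⟩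
  choose ad had using hadj0
  obtain ⟨v₀, hv₀⟩ : ∃ v₀ : Fin n → F, v₀ ≠ 0 :=
    ⟨Pi.single ⟨0, by omega⟩ 1, fun e => by simpa using congrFun e ⟨0, by omega⟩⟩
  have huniq : ∀ {a b : K}, (∀ u v : Fin n → F, herm q u (a • v) = herm q u (b • v)) → a = b := fun h =>
    smul_left_injective K hv₀ (hsep _ _ fun u => h u v₀)
  have had_mul : ∀ a b, ad (a * b) = ad a * ad b := fun a b => huniq fun u v => by
    rw [← had, mul_smul, had, had, smul_smul, mul_comm (ad b)]
  have had_add : ∀ a b, ad (a + b) = ad a + ad b := fun a b => huniq fun u v => by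
    rw [← had, add_smul, add_smul, hsq.herm_add_right, herm_add_left, had, had]
  have had_F : ∀ t : F, ad (algebraMap F K t) = algebraMap F K (t ^ q) := fun t => huniq fun u v => by
    rw [← had, algebraMap_smul, algebraMap_smul, herm_smul_left, herm_smul_right, hsq.pow_pow]
  have had_ad : ∀ a, ad (ad a) = a := fun a => huniq fun u v => by
    rw [← had, ← hsq.herm_symm, ← had, hsq.herm_symm]
  have had_one : ad 1 = 1 := by simpa using had_F 1
  have hadQ : ∀ a, ad a = a ^ q ^ r := by
    let χ : K →ₐ[F] K :=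
      { toFun := fun a => ad a ^ q ^ r
        map_one' := by rw [had_one, one_pow]
        map_mul' := fun a b => by rw [had_mul, mul_pow]
        map_zero' := by
          have := had_F 0
          rw [map_zero, zero_pow hsq.q_ne_zero, map_zero] at this
          rw [this, zero_pow D.sqK.q_ne_zero]
        map_add' := fun a b => by rw [had_add, D.sqK.add_pow]
        commutes' := fun t => by rw [had_F, D.algebraMap_pow, hsq.pow_pow] }
    let χ' : Gal(K/F) := AlgEquiv.ofBijective χ
      (Finite.injective_iff_bijective.1 χ.toRingHom.injective)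
    have hpow : ∀ a (j : ℕ), ad (a ^ j) = ad a ^ j := fun a j => by
      induction j with
      | zero => rw [pow_zero, pow_zero, had_one]
      | succ j ih => rw [pow_succ, pow_succ, had_mul, ih]
    have h2 : χ' ^ 2 = 1 := AlgEquiv.ext fun a => by
      rw [pow_two, AlgEquiv.mul_apply]
      show ad (ad a ^ q ^ r) ^ q ^ r = a
      rw [hpow, had_ad, D.sqK.pow_pow]
    have hcard : Nat.card (Gal(K/F)) = r := by rw [IsGalois.card_aut_eq_finrank, hfr]
    have h1 : χ' = 1 := by
      have e1 := orderOf_dvd_iff_pow_eq_one.2 h2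
      have e2 : orderOf χ' ∣ r := hcard ▸ orderOf_dvd_natCard χ'
      rw [← orderOf_eq_one_iff]
      exact Nat.eq_one_of_dvd_coprimes (Nat.coprime_two_left.2 hro) e1 e2
    intro a
    have h3 : ad a ^ q ^ r = a := congrArg (fun f : Gal(K/F) => f a) h1
    calc ad a = (ad a ^ q ^ r) ^ q ^ r := (D.sqK.pow_pow _).symm
      _ = a ^ q ^ r := by rw [h3]
  -- the form over `K`
  have htr : (Algebra.traceForm F K).Nondegenerate := traceForm_nondegenerate F K
  have hfun : ∀ u v : Fin n → F, ∃ c : K, ∀ k : K, Algebra.trace F K (k * c) = herm q (k • u) v := by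
    intro u v
    let φ : K →ₗ[F] F :=
      { toFun := fun k => herm q (k • u) v
        map_add' := fun a b => by rw [add_smul, herm_add_left]
        map_smul' := fun t a => by
          rw [smul_assoc, herm_smul_left, RingHom.id_apply, smul_eq_mul] }
    refine ⟨((Algebra.traceForm F K).toDual htr).symm φ, fun k => ?_⟩
    have := LinearMap.BilinForm.apply_toDual_symm_apply (hB := htr) φ k
    rw [Algebra.traceForm_apply, mul_comm] at this
    exact this
  choose h hh using hfun
  have hform : ∀ u v : Fin n → F, Algebra.trace F K (h u v) = herm q u v := fun u v => by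
    have := hh u v 1
    rwa [one_mul, one_smul] at this
  set e : GL (Fin n) F ≃* ((Fin n → F) ≃ₗ[F] (Fin n → F)) := glEquiv n F with hedef
  have he : ∀ g v, e g v = (g : Matrix (Fin n) (Fin n) F) *ᵥ v := fun g v => glEquiv_apply g v
  have hNmem : ∀ g : GL (Fin n) F, (∀ k : K, ∃ k' : K, ∀ x, e g (k • x) = k' • e g x) →
      g ∈ subalgebraNormalizer K₀ := by
    intro g hg
    rw [mem_normalizer_iff_map_le]
    intro k hk
    obtain ⟨k, rfl⟩ := (hψ k).mp hk
    obtain ⟨k', hk'⟩ := hg k
    have h1 : (g : Matrix (Fin n) (Fin n) F) * ψ k = ψ k' * (g : Matrix (Fin n) (Fin n) F) := by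
      refine Matrix.toLin'.injective (LinearMap.ext fun x => ?_)
      have := hk' x
      rw [he, he, hsmul, hsmul, Matrix.mulVec_mulVec, Matrix.mulVec_mulVec] at this
      rw [Matrix.toLin'_apply, Matrix.toLin'_apply]
      exact this
    rw [h1, mul_assoc, ← Units.val_mul, mul_inv_cancel, Units.val_one, mul_one]
    exact (hψ _).mpr ⟨k', rfl⟩
  refine ⟨lt_of_le_not_ge inf_le_right fun hle => ?_, fun M hM hMS => ?_⟩
  · obtain ⟨d, hd0, hd⟩ := hsq.exists_skew
    obtain ⟨ε, hε, -⟩ := exists_eps hsq (0 : F) 0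
    obtain ⟨i, hi⟩ : ∃ i : Fin n, i = ⟨0, by omega⟩ := ⟨_, rfl⟩
    obtain ⟨j, hj⟩ : ∃ j : Fin n, j = ⟨1, by omega⟩ := ⟨_, rfl⟩
    have hij : i ≠ j := by rw [hi, hj]; simp
    have hv := isotropic_pair hsq hij hε
    refine transvec_not_mem_subalgebraNormalizer (g := uTau hv d)
      (by rw [Fintype.card_fin]; omega) hr.one_lt hK (uTau_isTransvec hv d) ?_ (pair_ne_zero hij ε)
      (hle (uTau_mem hsq hv hd)).1
    exact smul_ne_zero hd0 (hermDual_ne_zero hsq (pair_ne_zero hij ε))
  by_cases hMN : M ≤ subalgebraNormalizer K₀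
  · exact Or.inl (le_antisymm (le_inf hMN hMS) hM)
  obtain ⟨g, hgM, hgN⟩ := SetLike.not_le_iff_exists.mp hMN
  refine Or.inr (le_antisymm hMS ?_)
  have hS : Setup q r h (M.map e.toMonoidHom) := by
    refine ⟨D, hdim, hdim3, fun u u' v => D.ext_trace fun k => ?_, fun c u v => D.ext_trace fun k => ?_,
      fun u v => D.ext_trace fun k => ?_, fun v hv => ?_, ?_, fun s hs hdet => ?_⟩
    · rw [hh, mul_add, map_add, hh, hh, smul_add, herm_add_left]
    · rw [hh, ← mul_assoc, hh, smul_smul]
    · rw [hh]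
      have e1 : Algebra.trace F K (k * h u v ^ q ^ r) =
          Algebra.trace F K (k ^ q ^ r * h u v) ^ q := by
        rw [← D.trace_pow, mul_pow, D.sqK.pow_pow]
      rw [e1, hh, hsq.herm_symm, had, hadQ]
    · refine hsep v 0 fun u => ?_
      rw [← hform, hv u, map_zero, hsq.herm_zero_right]
    · rintro _ ⟨g', hg', rfl⟩ u v
      rw [hform, hform]
      exact (hMS hg').1 u v
    · refine ⟨e.symm (s.restrictScalars F), hM ⟨hNmem _ fun k => ⟨k, fun x => ?_⟩, ?_, ?_⟩,
        e.apply_symm_apply _⟩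
      · rw [MulEquiv.apply_symm_apply]; exact s.map_smul k x
      · intro u v
        show herm q _ _ = herm q u v
        rw [show ((Units.coeHom _) (e.symm (s.restrictScalars F))).mulVec u = s u by
            show (e.symm (s.restrictScalars F) : Matrix (Fin n) (Fin n) F) *ᵥ u = _
            rw [← he, MulEquiv.apply_symm_apply]; rfl,
          show ((Units.coeHom _) (e.symm (s.restrictScalars F))).mulVec v = s v by
            show (e.symm (s.restrictScalars F) : Matrix (Fin n) (Fin n) F) *ᵥ v = _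
            rw [← he, MulEquiv.apply_symm_apply]; rfl,
          ← hform, ← hform, hs]
      · show Matrix.GeneralLinearGroup.det _ = 1
        rw [← det_glEquiv, ← hedef, MulEquiv.apply_symm_apply]
        refine Units.ext ?_
        rw [LinearEquiv.coe_det, Units.val_one]
        rw [LinearEquiv.coe_det] at hdet
        exact (LinearMap.det_restrictScalars (f := s.toLinearMap)).trans hdet
  have hnot : ∃ g' ∈ M.map e.toMonoidHom,
      ¬ ∀ k : K, ∃ k' : K, ∀ x, g' (k • x) = k' • g' x :=
    ⟨e g, ⟨g, hgM, rfl⟩, fun hc => hgN (hNmem g hc)⟩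
  intro x hx
  have hxU : ∀ u v : Fin n → F, herm q (e x u) (e x v) = herm q u v := fun u v => hx.1 u v
  have hxS : (⟨e x, hxU⟩ : UG n F q) ∈ SUG n F q := by
    rw [mem_SUG]
    show LinearEquiv.det (glEquiv n F x) = 1
    rw [det_glEquiv]
    exact hx.2
  rw [SUG_eq_TG hsq (by omega) (fun h3 => by omega)] at hxS
  have hall : ∀ a : UG n F q, a ∈ TG n F q → a.1 ∈ M.map e.toMonoidHom := by
    intro a ha
    induction ha using Subgroup.closure_induction with
    | mem a ha =>
      obtain ⟨v, t, hvt, ha⟩ := ha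
      obtain ⟨g', hg', hg'x⟩ := hS.dichotomy hnot (v := v) (t := t)
        (by rw [Setup.tf, hform]; exact hvt.1) hvt.2
      have : a.1 = g' := LinearEquiv.ext fun z => by
        rw [ha, hg'x, LinearMap.smul_apply, Setup.tau_apply, Setup.tf, hform, smul_smul]
      rw [this]; exact hg'
    | one => exact one_mem _
    | mul a b _ _ ha hb => exact mul_mem ha hb
    | inv a _ ha => exact inv_mem ha
  obtain ⟨g', hg', he'⟩ := hall _ hxS
  rwa [e.injective he'] at hg'

/-- The normaliser of an adjoint-closed field of odd prime degree is maximal. -/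
theorem suGL_extField_maximal_three {F : Type*} [Field F] [Fintype F] {n q r : ℕ}
    (hF : Fintype.card F = q ^ 2) (hr : r.Prime) (hro : Odd r) (hlt : r < n)
    (hsmall : ¬ (q = 2 ∧ r = 3) ∨ 3 * r ≤ n) (K : Subalgebra F (Matrix (Fin n) (Fin n) F))
    (hK : IsFieldSubalgebra r K) (hac : IsAdjointClosedFor (Cfsg.hermForm n F q) K) :
    IsMaximalIn (Cfsg.GU n F q ⊓ specialLinear (Fin n) F)
      (subalgebraNormalizer K ⊓ (Cfsg.GU n F q ⊓ specialLinear (Fin n) F)) := by
  haveI : Nonempty (Fin n) := ⟨⟨0, by omega⟩⟩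
  letI : Field K := (isField_of_isFieldSubalgebra hK).toField
  haveI : Finite K := Finite.of_injective
    (fun x : K => (x : Matrix (Fin n) (Fin n) F)) Subtype.val_injective
  exact suGL_extField_maximal_aux hF hr hro hlt hsmall (K := K) hK.finrank_eq K.val K
    (fun x => ⟨fun hx => ⟨⟨x, hx⟩, rfl⟩, fun ⟨c, hc⟩ => hc ▸ c.2⟩) hK hac

/-- The same, with the stronger bound on the dimension. -/
theorem suGL_extField_maximal {F : Type*} [Field F] [Fintype F] {n q r : ℕ}
    (hF : Fintype.card F = q ^ 2) (hr : r.Prime) (hro : Odd r) (hlt : r < n)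
    (hsmall : ¬ (q = 2 ∧ r = 3) ∨ 4 * r ≤ n) (K : Subalgebra F (Matrix (Fin n) (Fin n) F))
    (hK : IsFieldSubalgebra r K) (hac : IsAdjointClosedFor (Cfsg.hermForm n F q) K) :
    IsMaximalIn (Cfsg.GU n F q ⊓ specialLinear (Fin n) F)
      (subalgebraNormalizer K ⊓ (Cfsg.GU n F q ⊓ specialLinear (Fin n) F)) :=
  suGL_extField_maximal_three hF hr hro hlt (hsmall.imp id fun h => by omega) K hK hac

end Cfsg.Agent.MaxSub.UnitExt
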