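import Cfsg.Agent.MaxSub.UnitExt.Closure

/-!
A maximal intersection of an isotropic line with the image of another one is a hyperplane of both.
-/

set_option autoImplicit false
set_option linter.style.haveILetI false
set_option linter.unusedSectionVars false

namespace Cfsg.Agent.MaxSub.UnitExt

open Module Cfsg.Agent.Classical.U Cfsg.Agent.MaxSub.ExtField

universe u v w

variable {F : Type u} {K : Type v} {V : Type w} [Field F] [Field K] [Algebra F K] [AddCommGroup V]
  [Module F V] [Module K V] [IsScalarTower F K V] {q r : ℕ}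

/-- Chevalley-Warning for polynomials whose values at fixed points are fixed. -/
lemma exists_fixed_zero (hF : SqField F q) {σ ι : Type*} [Fintype σ] [DecidableEq σ] [Fintype ι]
    (f : ι → MvPolynomial σ F)
    (hfix : ∀ i (x : σ → F), (∀ a, x a ^ q = x a) →
      MvPolynomial.eval x (f i) ^ q = MvPolynomial.eval x (f i))
    (h0 : ∀ i, MvPolynomial.eval 0 (f i) = 0)
    (hdeg : ∑ i, (f i).totalDegree < Fintype.card σ) :
    ∃ x : σ → F, x ≠ 0 ∧ (∀ a, x a ^ q = x a) ∧ ∀ i, MvPolynomial.eval x (f i) = 0 := by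
  classical
  haveI := hF.1
  let F₁ : Subfield F :=
    { carrier := {x | x ^ q = x}
      mul_mem' := fun {a b} ha hb => by
        show (a * b) ^ q = a * b
        rw [mul_pow, ha, hb]
      one_mem' := one_pow q
      add_mem' := fun {a b} ha hb => by
        show (a + b) ^ q = a + b
        rw [hF.add_pow, ha, hb]
      zero_mem' := zero_pow hF.q_ne_zero
      neg_mem' := fun {a} ha => by
        show (-a) ^ q = -a
        rw [hF.neg_pow, ha]
      inv_mem' := fun a ha => by
        show (a⁻¹) ^ q = a⁻¹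
        rw [inv_pow, ha] }
  haveI := Fintype.ofFinite F₁
  obtain ⟨t, ht⟩ := hF.exists_trace (c := (1 : F)) (one_pow q)
  let γ : F → F₁ := fun c => ⟨t * c + (t * c) ^ q, hF.trace_fixed _⟩
  let P : ι → MvPolynomial σ F₁ := fun i =>
    ∑ m ∈ (f i).support, MvPolynomial.monomial m (γ ((f i).coeff m))
  have hPdeg : ∀ i, (P i).totalDegree ≤ (f i).totalDegree := fun i =>
    MvPolynomial.totalDegree_finsetSum_le fun m hm =>
      (MvPolynomial.totalDegree_monomial_le _ _).trans (MvPolynomial.le_totalDegree hm)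
  have hP : ∀ i (x : σ → F₁),
      (MvPolynomial.eval x (P i) : F₁).1 = MvPolynomial.eval (fun a => (x a : F)) (f i) := by
    intro i x
    obtain ⟨D, hD⟩ : ∃ D, D = MvPolynomial.eval (fun a => (x a : F)) (f i) := ⟨_, rfl⟩
    have e1 : ∀ c : F, ∀ m : σ →₀ ℕ, ((γ c : F₁) : F) * ∏ a ∈ m.support, (x a : F) ^ m a =
        t * (c * ∏ a ∈ m.support, (x a : F) ^ m a) +
          (t * (c * ∏ a ∈ m.support, (x a : F) ^ m a)) ^ q := by
      intro c m
      have hpr : (∏ a ∈ m.support, (x a : F) ^ m a) ^ q = ∏ a ∈ m.support, (x a : F) ^ m a := by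
        rw [← Finset.prod_pow]
        refine Finset.prod_congr rfl fun a _ => ?_
        rw [← pow_mul, mul_comm, pow_mul, show (x a : F) ^ q = x a from (x a).2]
      simp only [γ, mul_pow, hpr]
      ring
    rw [← hD]
    calc (MvPolynomial.eval x (P i) : F₁).1
        = ∑ m ∈ (f i).support,
            ((γ ((f i).coeff m) : F₁) : F) * ∏ a ∈ m.support, (x a : F) ^ m a := by
          simp only [P, map_sum, MvPolynomial.eval_monomial, Finsupp.prod]
          push_cast
          rfl
      _ = t * D + (t * D) ^ q := by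
          simp only [e1, Finset.sum_add_distrib, ← Finset.mul_sum, ← hF.sum_pow]
          rw [hD, MvPolynomial.eval_eq]
      _ = D := by
          rw [mul_pow, show D ^ q = D from hD ▸ hfix i _ fun a => (x a).2, ← add_mul, ht, one_mul]
  obtain ⟨p, hp⟩ : ∃ p, CharP F₁ p := ⟨ringChar F₁, ringChar.charP _⟩
  have hpr : p.Prime :=
    (CharP.char_is_prime_or_zero F₁ p).resolve_right (CharP.char_ne_zero_of_finite F₁ p)
  have hdvd := char_dvd_card_solutions_of_fintype_sum_lt p (f := P)
    (lt_of_le_of_lt (Finset.sum_le_sum fun i _ => hPdeg i) hdeg)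
  let zero : {x : σ → F₁ // ∀ i, MvPolynomial.eval x (P i) = 0} :=
    ⟨0, fun i => Subtype.ext (by rw [hP]; exact h0 i)⟩
  have hpos : 0 < Fintype.card {x : σ → F₁ // ∀ i, MvPolynomial.eval x (P i) = 0} :=
    Fintype.card_pos_iff.2 ⟨zero⟩
  haveI : Nontrivial {x : σ → F₁ // ∀ i, MvPolynomial.eval x (P i) = 0} :=
    Fintype.one_lt_card_iff_nontrivial.1 (hpr.two_le.trans (Nat.le_of_dvd hpos hdvd))
  obtain ⟨⟨x, hx⟩, hne⟩ := exists_ne zero
  refine ⟨fun a => (x a : F),
    fun e => hne (Subtype.ext (funext fun a => Subtype.ext (congrFun e a))), fun a => (x a).2,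
    fun i => ?_⟩
  rw [← hP, hx i]
  rfl

/-- Too many hermitian matrices have a singular real combination. -/
lemma exists_singular (hF : SqField F q) {ι : Type*} [Fintype ι] [DecidableEq ι] [Nonempty ι] {N : ℕ}
    (M : Fin N → Matrix ι ι F) (hM : ∀ i j k, M i j k ^ q = M i k j) (hN : Fintype.card ι < N) :
    ∃ x : Fin N → F, x ≠ 0 ∧ (∀ i, x i ^ q = x i) ∧
      ∃ v : ι → F, v ≠ 0 ∧ (∑ i, x i • M i).mulVec v = 0 := by
  classical
  let σ : F →+* F :=
    { toFun := fun x => x ^ q
      map_one' := one_pow q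
      map_mul' := fun x y => mul_pow x y q
      map_zero' := zero_pow hF.q_ne_zero
      map_add' := hF.add_pow }
  let A : Matrix ι ι (MvPolynomial (Fin N) F) :=
    Matrix.of fun j k => ∑ i, MvPolynomial.C (M i j k) * MvPolynomial.X i
  let f := A.det
  have hdeg : f.totalDegree ≤ Fintype.card ι := by
    simp only [f, Matrix.det_apply]
    refine MvPolynomial.totalDegree_finsetSum_le fun s _ => ?_
    rcases Int.units_eq_one_or (Equiv.Perm.sign s) with hs | hs <;> rw [hs] <;>
      simp only [one_smul, Units.neg_smul, MvPolynomial.totalDegree_neg] <;>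
      (refine (MvPolynomial.totalDegree_finsetProd _ _).trans ?_
       refine (Finset.sum_le_card_nsmul (Finset.univ : Finset ι) _ 1 fun j _ => ?_).trans (by simp)
       show (∑ i, MvPolynomial.C (M i (s j) j) * MvPolynomial.X i :
         MvPolynomial (Fin N) F).totalDegree ≤ 1
       refine MvPolynomial.totalDegree_finsetSum_le fun i _ => ?_
       refine (MvPolynomial.totalDegree_mul _ _).trans ?_
       rw [MvPolynomial.totalDegree_C, MvPolynomial.totalDegree_X])
  have heval : ∀ x : Fin N → F, MvPolynomial.eval x f = (∑ i, x i • M i).det := fun x => by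
    simp only [f]
    rw [RingHom.map_det]
    congr 1
    ext j k
    simp [A, Matrix.sum_apply, mul_comm]
  obtain ⟨x, hx0, hxf, hx⟩ := exists_fixed_zero hF (fun _ : Unit => f)
    (fun _ x hxf => by
      rw [heval]
      show σ _ = _
      rw [RingHom.map_det, ← Matrix.det_transpose]
      congr 1
      ext j k
      simp only [Matrix.transpose_apply, RingHom.mapMatrix_apply, Matrix.map_apply,
        Matrix.sum_apply, Matrix.smul_apply, smul_eq_mul, map_sum, map_mul]
      refine Finset.sum_congr rfl fun i _ => ?_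
      rw [show σ (x i) = x i from hxf i, show σ (M i k j) = M i j k from hM i k j])
    (fun _ => by rw [heval]; simp)
    (by simpa using lt_of_le_of_lt hdeg hN)
  exact ⟨x, hx0, hxf, Matrix.exists_mulVec_eq_zero_iff.2 (by rw [← heval]; exact hx ())⟩

lemma exists_fixed_indep (D : FD F K q r) : ∀ (N : ℕ) (X : Submodule F K), finrank F X + N ≤ r →
    ∃ s : Fin N → K, (∀ i, s i ^ q ^ r = s i) ∧ ∀ x : Fin N → F, ∑ i, x i • s i ∈ X → x = 0 := by
  intro N
  induction N with
  | zero => exact fun X _ => ⟨fun i => i.elim0, fun i => i.elim0, fun x _ => funext fun i => i.elim0⟩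
  | succ N ih =>
    intro X hX
    haveI := D.fd
    obtain ⟨s₀, hs₀, hs₀X⟩ : ∃ s : K, s ^ q ^ r = s ∧ s ∉ X := by
      by_contra hc
      push Not at hc
      have htop : X = ⊤ := Submodule.eq_top_iff'.2 fun m => by
        obtain ⟨a, b, t, -, ha, hb, rfl⟩ := D.decomp m
        rw [← Algebra.smul_def]
        exact X.add_mem (hc a ha) (X.smul_mem t (hc b hb))
      rw [htop, finrank_top, D.rk] at hX
      omega
    have hle : finrank F (X ⊔ F ∙ s₀ : Submodule F K) ≤ finrank F X + 1 := by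
      refine (Submodule.finrank_add_le_finrank_add_finrank _ _).trans (Nat.add_le_add_left ?_ _)
      rw [finrank_span_singleton (fun e => hs₀X (by rw [e]; exact X.zero_mem))]
    obtain ⟨s, hs, hind⟩ := ih (X ⊔ F ∙ s₀) (by omega)
    refine ⟨Fin.cons s₀ s, Fin.cases hs₀ hs, fun x hx => ?_⟩
    rw [Fin.sum_univ_succ] at hx
    simp only [Fin.cons_zero, Fin.cons_succ] at hx
    have h1 := hind (fun i => x i.succ) (by
      have e : ∑ i : Fin N, x i.succ • s i =
          (x 0 • s₀ + ∑ i : Fin N, x i.succ • s i) + (-(x 0)) • s₀ := by module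
      rw [e]
      exact Submodule.add_mem _ (Submodule.mem_sup_left hx)
        (Submodule.mem_sup_right (Submodule.smul_mem _ _ (Submodule.mem_span_singleton_self s₀))))
    have h2 : ∀ i : Fin N, x i.succ = 0 := fun i => congrFun h1 i
    simp only [h2, zero_smul, Finset.sum_const_zero, add_zero] at hx
    refine funext (Fin.cases ?_ h2)
    by_contra h0
    have := X.smul_mem (x 0)⁻¹ hx
    rw [inv_smul_smul₀ h0] at this
    exact hs₀X this

namespace Setup

variable {h : V → V → K} {G : Subgroup (V ≃ₗ[F] V)} (hS : Setup q r h G)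

/-- The data of a maximal intersection. -/
structure MaxData where
  g : V ≃ₗ[F] V
  w : V
  y : V
  d : V
  x₀ : V
  z₀ : V
  c : K
  g_mem : g ∈ G
  w_iso : h w w = 0
  y_iso : h y y = 0
  y_ne : y ≠ 0
  c_skew : c ^ q ^ r = -c
  d_ne : d ≠ 0
  d_mem : d ∈ kline F K y
  x₀_mem : x₀ ∈ kline F K y
  d_z₀ : tf (F := F) h d z₀ = 0
  x₀_z₀ : tf (F := F) h x₀ z₀ = 1
  line : ∀ l ∈ kline F K y, g (el hS w c (g⁻¹ l)) = tf (F := F) h l z₀ • d

include hS

lemma line_iso {y : V} (hy : h y y = 0) {l l' : V} (hl : l ∈ kline F K y)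
    (hl' : l' ∈ kline F K y) : h l l' = 0 := by
  obtain ⟨a, rfl⟩ := mem_kline.1 hl
  obtain ⟨b, rfl⟩ := mem_kline.1 hl'
  rw [hS.smul_left, hS.smul_right, hy, mul_zero, mul_zero]

lemma image_iso {g : V ≃ₗ[F] V} (hg : g ∈ G) {w : V} (hw : h w w = 0) {a b : V}
    (ha : a ∈ (kline F K w).map g.toLinearMap) (hb : b ∈ (kline F K w).map g.toLinearMap) :
    tf (F := F) h a b = 0 := by
  obtain ⟨a', ha', rfl⟩ := ha
  obtain ⟨b', hb', rfl⟩ := hb
  show Algebra.trace F K (h (g a') (g b')) = 0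
  rw [hS.iso g hg, hS.line_iso hw ha' hb', map_zero]

/-- A totally singular space of the dimension of a line contains an isotropic vector. -/
lemma exists_iso_mem (W : Submodule F V) (hW : finrank F W = r)
    (hsing : ∀ a ∈ W, ∀ b ∈ W, tf (F := F) h a b = 0) : ∃ x ∈ W, x ≠ 0 ∧ h x x = 0 := by
  classical
  haveI := hS.fld.fd
  haveI := hS.fld.finite_F
  haveI := hS.fld.finite_K
  haveI := hS.fdV
  haveI : FiniteDimensional F V := Module.Finite.trans K V
  have hF := hS.fld.hF
  have hr3 := hS.fld.three_le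
  obtain ⟨s, hs, hind⟩ := exists_fixed_indep hS.fld (r - 1) (F ∙ (1 : K)) (by
    rw [finrank_span_singleton (one_ne_zero (α := K))]; omega)
  have hsep : ∀ z : K, Algebra.trace F K z = 0 → (∀ j, Algebra.trace F K (s j * z) = 0) → z = 0 := by
    intro z h1 hz
    let φ : F × (Fin (r - 1) → F) →ₗ[F] K :=
      (LinearMap.toSpanSingleton F K 1).coprod (Fintype.linearCombination F s)
    have hφ : ∀ p, φ p = p.1 • (1 : K) + ∑ i, p.2 i • s i := fun p => by
      simp [φ, Fintype.linearCombination_apply]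
    have hinj : Function.Injective φ := (injective_iff_map_eq_zero φ).2 fun p hp => by
      rw [hφ] at hp
      have e2 := hind p.2 (by
        rw [eq_neg_of_add_eq_zero_right hp]
        exact Submodule.neg_mem _ (Submodule.smul_mem _ _ (Submodule.mem_span_singleton_self _)))
      rw [e2] at hp
      simp only [Pi.zero_apply, zero_smul, Finset.sum_const_zero, add_zero] at hp
      exact Prod.ext ((smul_eq_zero.1 hp).resolve_right one_ne_zero) e2
    have hsurj := (LinearMap.injective_iff_surjective_of_finrank_eq_finrank (by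
      rw [finrank_prod, Module.finrank_self, Module.finrank_fin_fun, hS.fld.rk]; omega)).1 hinj
    refine hS.fld.ext_trace fun k => ?_
    obtain ⟨p, rfl⟩ := hsurj k
    rw [mul_zero, map_zero, hφ, add_mul, map_add, Finset.sum_mul, map_sum, Algebra.smul_mul_assoc,
      map_smul, one_mul, h1, smul_zero, zero_add]
    exact Finset.sum_eq_zero fun i _ => by rw [Algebra.smul_mul_assoc, map_smul, hz, smul_zero]
  let bW := Module.finBasis F W
  obtain ⟨t, ht⟩ := hS.fld.exists_not_fixed
  let co : Bool → F := fun b => if b then t else 1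
  obtain ⟨e, he⟩ : ∃ e : Fin (finrank F W) × Bool → V, ∀ a, e a = co a.2 • (bW a.1 : V) :=
    ⟨_, fun a => rfl⟩
  let f : Fin (r - 1) → MvPolynomial (Fin (finrank F W) × Bool) F := fun j => ∑ a, ∑ b,
    MvPolynomial.C (Algebra.trace F K (s j * h (e a) (e b))) *
      (MvPolynomial.X a * MvPolynomial.X b)
  have hadd : ∀ {ι : Type} (S : Finset ι) (v : ι → V) (y : V),
      h (∑ i ∈ S, v i) y = ∑ i ∈ S, h (v i) y := fun S v y => map_sum (hl hS y) v S
  have hadd' : ∀ {ι : Type} (S : Finset ι) (v : ι → V) (y : V),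
      h y (∑ i ∈ S, v i) = ∑ i ∈ S, h y (v i) := fun S v y => by
    rw [hS.herm _ y, hadd, hS.fld.sqK.sum_pow]
    exact Finset.sum_congr rfl fun i _ => (hS.herm _ _).symm
  have heval : ∀ j (x : Fin (finrank F W) × Bool → F), (∀ a, x a ^ q = x a) →
      MvPolynomial.eval x (f j) =
        Algebra.trace F K (s j * h (∑ a, x a • e a) (∑ a, x a • e a)) := by
    intro j x hx
    rw [hadd, Finset.mul_sum, map_sum]
    simp only [f, map_sum, map_mul, MvPolynomial.eval_C, MvPolynomial.eval_X]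
    refine Finset.sum_congr rfl fun a _ => ?_
    rw [hadd', Finset.mul_sum, map_sum]
    refine Finset.sum_congr rfl fun b _ => ?_
    rw [hS.smulF_left, hS.smulF_right, hx b, mul_left_comm (algebraMap F K (x a)),
      mul_left_comm (s j) _ _, hS.fld.trace_smul, mul_left_comm (s j) _ _, hS.fld.trace_smul]
    ring
  have hdeg : ∀ j, (f j).totalDegree ≤ 2 := fun j => by
    refine MvPolynomial.totalDegree_finsetSum_le fun a _ => ?_
    refine MvPolynomial.totalDegree_finsetSum_le fun b _ => ?_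
    refine (MvPolynomial.totalDegree_mul _ _).trans ?_
    rw [MvPolynomial.totalDegree_C, zero_add]
    refine (MvPolynomial.totalDegree_mul _ _).trans ?_
    rw [MvPolynomial.totalDegree_X, MvPolynomial.totalDegree_X]
  obtain ⟨x, hx0, hxf, hx⟩ := exists_fixed_zero hF f
    (fun j x hx => by
      rw [heval j x hx, ← hS.fld.trace_pow, mul_pow, hs j, hS.self_fixed])
    (fun j => by simp [f])
    (by
      refine lt_of_le_of_lt (Finset.sum_le_card_nsmul _ _ 2 fun j _ => hdeg j) ?_
      simp only [Finset.card_univ, Fintype.card_fin, smul_eq_mul, Fintype.card_prod,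
        Fintype.card_bool, hW]
      omega)
  have hX : ∑ a, x a • e a = ((∑ i, (x (i, false) + t * x (i, true)) • bW i : W) : V) := by
    rw [Fintype.sum_prod_type, Submodule.coe_sum]
    refine Finset.sum_congr rfl fun i _ => ?_
    rw [Fintype.sum_bool, Submodule.coe_smul]
    simp [he, co, smul_smul, add_smul, mul_comm, add_comm]
  refine ⟨∑ a, x a • e a, hX ▸ Subtype.coe_prop _, fun h0 => ?_,
    hsep _ (hsing _ (hX ▸ Subtype.coe_prop _) _ (hX ▸ Subtype.coe_prop _))
      fun j => by rw [← heval j x hxf]; exact hx j⟩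
  rw [hX, ZeroMemClass.coe_eq_zero] at h0
  have hli := Fintype.linearIndependent_iff.1 bW.linearIndependent _ h0
  refine hx0 (funext fun a => ?_)
  obtain ⟨i, c⟩ := a
  have e1 := hli i
  have e2 : x (i, false) + t ^ q * x (i, true) = 0 := by
    have := congrArg (· ^ q) e1
    simpa [hF.add_pow, mul_pow, hxf, zero_pow hF.q_ne_zero] using this
  have e3 : x (i, true) = 0 := (mul_eq_zero.1 (show (t - t ^ q) * x (i, true) = 0 by
    linear_combination e1 - e2)).resolve_left (sub_ne_zero.2 (Ne.symm ht))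
  cases c
  · simpa [e3] using e1
  · exact e3

/-- An element fixing a line pointwise and moving an orthogonal vector off its orthogonal. -/
lemma exists_fix_move (hgood : ¬ (q = 2 ∧ r = 3) ∨ 4 ≤ finrank K V) {d u : V} (hd : h d d = 0) (hd0 : d ≠ 0) (hud : h u d = 0)
    (hu : u ∉ kline F K d) (huu : tf (F := F) h u u = 0) :
    ∃ E ∈ G, (∀ b : K, E (b • d) = b • d) ∧ tf (F := F) h (E u) u ≠ 0 := by
  haveI := hS.fdV
  haveI := hS.fld.fd
  obtain ⟨v, hv, hvd, huv⟩ : ∃ v, h v v ≠ 0 ∧ h v d = 0 ∧ h u v ≠ 0 := by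
    by_cases h1 : h u u = 0
    swap
    · exact ⟨u, h1, hud, h1⟩
    obtain ⟨z, hzd, huz⟩ : ∃ z, h z d = 0 ∧ h u z ≠ 0 := by
      by_contra hc
      push Not at hc
      obtain ⟨p, hp, hp'⟩ := hS.exists_partner hd0
      refine hu (mem_kline.2 ⟨h p u ^ q ^ r, ?_⟩)
      rw [eq_comm, ← sub_eq_zero]
      refine hS.nondeg _ fun z => ?_
      have e := hS.zero_swap (hc (z - h z d • p)
        (by rw [hS.sub_left, hS.smul_left, hp', mul_one, sub_self]))
      rw [hS.sub_left, hS.smul_left, sub_eq_zero] at e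
      rw [hS.sub_right, hS.smul_right, hS.cj_cj, e, mul_comm, sub_self]
    by_cases h2 : h z z = 0
    swap
    · exact ⟨z, h2, hzd, huz⟩
    obtain ⟨t, ht⟩ := hS.exists_half
    refine ⟨z + (t / h u z) • u, ?_, by rw [hS.add_left, hS.smul_left, hzd, hud, mul_zero, add_zero],
      ?_⟩
    · rw [hS.add_left, hS.add_right, hS.add_right, hS.smul_left, hS.smul_left, hS.smul_right,
        hS.smul_right, h1, h2, hS.herm u z, div_pow,
        div_mul_cancel₀ _ (pow_ne_zero _ huz), div_mul_cancel₀ _ huz]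
      simp only [mul_zero, zero_add, add_zero]
      rw [add_comm, ht]
      exact one_ne_zero
    · rw [hS.add_right, hS.smul_right, h1, mul_zero, add_zero]
      exact huz
  have hfix : ∀ (E : V ≃ₗ[F] V) (z : V) (c : K), h z d = 0 →
      (∀ x, E x = x + (c * h x z) • z) → ∀ b : K, E (b • d) = b • d := fun E z c hz hE b => by
    rw [hE, hS.smul_left, hS.zero_swap hz, mul_zero, mul_zero, zero_smul, add_zero]
  rcases hgood with hsm | hk4
  · obtain ⟨μ, hμ, hμN, hμF⟩ := hS.fld.exists_circle hsm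
    by_contra hcon
    push Not at hcon
    obtain ⟨s₀, hs₀⟩ : ∃ s₀, s₀ = h u v * h v u / h v v := ⟨_, rfl⟩
    have hs0 : s₀ ≠ 0 := hs₀ ▸ div_ne_zero (mul_ne_zero huv fun e => huv (hS.zero_swap e)) hv
    have hj : ∀ j : ℕ, Algebra.trace F K ((μ ^ j - 1) * s₀) = 0 := by
      intro j
      obtain ⟨E, hE, hdet, hEx⟩ := hS.exists_href v ((μ ^ j - 1) / h v v) (by
        rw [div_pow, hS.fld.sqK.sub_pow, one_pow, hS.self_fixed]
        field_simp
        have : μ ^ j * (μ ^ j) ^ q ^ r = 1 := by rw [← pow_mul, mul_comm j, pow_mul, ← mul_pow, hμ, one_pow]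
        linear_combination this)
      have e := hcon (E.restrictScalars F) (hS.lin E hE (by
        rw [hdet, div_mul_cancel₀ _ hv, add_sub_cancel, map_pow, hμN, one_pow]))
        (hfix _ v _ hvd hEx)
      rw [LinearEquiv.restrictScalars_apply, hEx, hS.tf_add_left, huu, zero_add, tf,
        hS.smul_left] at e
      rw [hs₀]
      convert e using 2
      ring
    let X : Submodule F K :=
      { carrier := {x | ∀ j : ℕ, Algebra.trace F K ((μ - 1) * μ ^ j * s₀ * x) = 0}
        add_mem' := fun {a b} ha hb j => by rw [mul_add, map_add, ha, hb, add_zero]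
        zero_mem' := fun j => by rw [mul_zero, map_zero]
        smul_mem' := fun t a ha j => by rw [mul_smul_comm, map_smul, ha, smul_zero] }
    let S : Subalgebra F K :=
      { carrier := {t | ∀ x ∈ X, t * x ∈ X}
        mul_mem' := fun {s t} hs ht x hx => by rw [mul_assoc]; exact hs _ (ht x hx)
        one_mem' := fun x hx => by rwa [one_mul]
        add_mem' := fun {s t} hs ht x hx => by rw [add_mul]; exact X.add_mem (hs x hx) (ht x hx)
        zero_mem' := fun x _ => by rw [zero_mul]; exact X.zero_mem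
        algebraMap_mem' := fun f x hx => by rw [← Algebra.smul_def]; exact X.smul_mem f hx }
    haveI := Subalgebra.isSimpleOrder_of_finrank_prime F K (hS.fld.rk ▸ hS.fld.prime)
    have hμS : μ ∈ S := fun x hx j => by
      have := hx (j + 1)
      convert this using 2
      ring
    have h1X : (1 : K) ∈ X := fun j => by
      have := hj (j + 1)
      have h' := hj j
      rw [mul_one]
      rw [show (μ - 1) * μ ^ j * s₀ = (μ ^ (j + 1) - 1) * s₀ - (μ ^ j - 1) * s₀ by ring, map_sub,
        this, h', sub_zero]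
    have hStop : S = ⊤ := (eq_bot_or_eq_top S).resolve_left fun hb => hμF (by
      rwa [hb, Algebra.mem_bot] at hμS)
    refine mul_ne_zero (sub_ne_zero.2 (fun (e : μ = 1) => hμF ⟨1, by rw [map_one, e]⟩)) hs0
      (hS.fld.ext_trace fun k => ?_)
    have := (show k ∈ S from hStop ▸ Algebra.mem_top) 1 h1X 0
    rw [mul_zero, map_zero]
    convert this using 2
    ring
  · obtain ⟨f, hf, hdf, hfd⟩ := hS.exists_iso_partner hd hd0
    obtain ⟨v', hv'⟩ : ∃ v', v' = v - h v f • d := ⟨_, rfl⟩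
    have hv'd : h v' d = 0 := by rw [hv', hS.sub_left, hS.smul_left, hd, hvd, mul_zero, sub_zero]
    have hv'f : h v' f = 0 := by rw [hv', hS.sub_left, hS.smul_left, hdf, mul_one, sub_self]
    have hv'v' : h v' v' = h v v := by
      rw [hv', hS.sub_left, hS.sub_right, hS.sub_right, hS.smul_left, hS.smul_left, hS.smul_right,
        hS.smul_right, hd, hvd, hS.zero_swap hvd]
      ring
    have huv' : h u v' = h u v := by
      rw [hv', hS.sub_right, hS.smul_right, hud, mul_zero, sub_zero]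
    obtain ⟨v₂, hv₂, hv₂S⟩ := hS.exists_aniso_perp (Submodule.span K ({d, f, v'} : Set V))
      (by
        classical
        have h0 := finrank_span_finset_le_card (R := K) ({d, f, v'} : Finset V)
        have := Finset.card_le_three (a := d) (b := f) (c := v')
        unfold Set.finrank at h0
        rw [show (({d, f, v'} : Finset V) : Set V) = {d, f, v'} by ext; simp] at h0
        omega)
      fun z => by
        obtain ⟨z', hz, h1, h2⟩ := hS.hyp_proj hd hf hdf hfd z
        refine ⟨z' - (h z' v' / h v' v') • v', ?_, fun s hs => ?_⟩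
        · rw [sub_sub_eq_add_sub, add_sub_right_comm]
          refine Submodule.add_mem _ (Submodule.span_mono (by intro x; simp; tauto) hz)
            (Submodule.smul_mem _ _ (Submodule.subset_span (by simp)))
        · have hv'0 : h v' v' ≠ 0 := hv'v' ▸ hv
          induction hs using Submodule.span_induction with
          | mem x hx =>
            rcases hx with rfl | rfl | rfl
            · rw [hS.sub_left, hS.smul_left, h1, hv'd, mul_zero, sub_zero]
            · rw [hS.sub_left, hS.smul_left, h2, hv'f, mul_zero, sub_zero]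
            · rw [hS.sub_left, hS.smul_left, div_mul_cancel₀ _ hv'0, sub_self]
          | zero => exact hS.zero_right _
          | add a b _ _ ha hb => rw [hS.add_right, ha, hb, add_zero]
          | smul c a _ ha => rw [hS.smul_right, ha, mul_zero]
    have hv₂d : h v₂ d = 0 := hv₂S d (Submodule.subset_span (by simp))
    have hv₂v' : h v₂ v' = 0 := hv₂S v' (Submodule.subset_span (by simp))
    obtain ⟨ε, hε⟩ := hS.fld.sqK.exists_norm (c := - h v v / h v₂ v₂) (by
      rw [div_pow, hS.fld.sqK.neg_pow, hS.self_fixed, hS.self_fixed])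
    obtain ⟨w, hw⟩ : ∃ w : K, w ^ q ^ r ≠ w := by
      obtain ⟨t, ht⟩ := hS.fld.exists_not_fixed
      exact ⟨algebraMap F K t, by
        rw [hS.fld.algebraMap_pow]; exact fun e => ht ((algebraMap F K).injective e)⟩
    have hw0 : w ≠ 0 := fun e => hw (by rw [e, zero_pow hS.fld.sqK.q_ne_zero])
    have hε0 : ε ≠ 0 := fun e => by
      rw [e, zero_pow (by omega), eq_comm, div_eq_zero_iff, neg_eq_zero] at hε
      exact hε.elim hv hv₂
    obtain ⟨ε', hε', hne⟩ : ∃ ε', ε' * ε' ^ q ^ r = - h v v / h v₂ v₂ ∧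
        h u v + ε' ^ q ^ r * h u v₂ ≠ 0 := by
      by_cases h0 : h u v + ε ^ q ^ r * h u v₂ = 0
      swap
      · exact ⟨ε, by rw [← pow_succ', hε], h0⟩
      refine ⟨w ^ q ^ r / w * ε, ?_, fun h1 => ?_⟩
      · rw [mul_pow, div_pow, hS.cj_cj, ← hε, pow_succ]
        field_simp [pow_ne_zero (q ^ r) hw0]
      · rw [mul_pow, div_pow, hS.cj_cj] at h1
        have e : (w / w ^ q ^ r - 1) * (ε ^ q ^ r * h u v₂) = 0 := by linear_combination h1 - h0
        rcases mul_eq_zero.1 e with e | e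
        · exact hw ((div_eq_one_iff_eq (pow_ne_zero _ hw0)).1 (sub_eq_zero.1 e)).symm
        · rw [e, add_zero] at h0
          exact huv h0
    obtain ⟨z, hz⟩ : ∃ z, z = v' + ε' • v₂ := ⟨_, rfl⟩
    have hzz : h z z = 0 := by
      rw [hz, hS.add_left, hS.add_right, hS.add_right, hS.smul_left, hS.smul_left, hS.smul_right,
        hS.smul_right, hS.zero_swap hv₂v', hv₂v', hv'v', ← mul_assoc, hε',
        div_mul_cancel₀ _ hv₂]
      ring
    have hzd : h z d = 0 := by rw [hz, hS.add_left, hS.smul_left, hv'd, hv₂d, mul_zero, add_zero]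
    have huz : h u z ≠ 0 := by rwa [hz, hS.add_right, hS.smul_right, huv']
    obtain ⟨c, hc, hct⟩ := hS.fld.exists_skew_trace_ne
      (mul_ne_zero huz fun e => huz (hS.zero_swap e))
    obtain ⟨E, hE, hEx⟩ := hS.mem_el hzz hc
    refine ⟨E, hE, hfix E z c hzd hEx, ?_⟩
    rw [hEx, el_apply, hS.tf_add_left, huu, zero_add, tf, hS.smul_left, mul_assoc]
    exact hct

/-- A maximal intersection. -/
theorem exists_maxData
    (hnot : ∃ g ∈ G, ∃ w : V, w ≠ 0 ∧ h w w = 0 ∧
      ∀ y, h y y = 0 → (kline F K w).map g.toLinearMap ≠ kline F K y)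
    (hgood : (¬ (q = 2 ∧ r = 3) ∨ 4 ≤ finrank K V) ∨ ∀ g ∈ G, ∀ w y : V, w ≠ 0 → h w w = 0 →
      y ≠ 0 → h y y = 0 → (kline F K w).map g.toLinearMap ≠ kline F K y →
        ∃ m : K, h (g⁻¹ (m • y)) w ≠ 0) :
    Nonempty (MaxData hS) := by
  classical
  haveI := hS.fdV
  haveI := hS.fld.fd
  haveI := hS.fld.finite_F
  haveI := hS.fld.finite_K
  haveI : FiniteDimensional F V := Module.Finite.trans K V
  have hrk := hS.fld.rk
  let P : ℕ → Prop := fun e => ∃ (g : V ≃ₗ[F] V) (w y : V), g ∈ G ∧ w ≠ 0 ∧ h w w = 0 ∧ y ≠ 0 ∧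
    h y y = 0 ∧ (kline F K w).map g.toLinearMap ≠ kline F K y ∧
    finrank F ((kline F K w).map g.toLinearMap ⊓ kline F K y : Submodule F V) = e
  have hUrk : ∀ (g : V ≃ₗ[F] V) (w : V), w ≠ 0 →
      finrank F ((kline F K w).map g.toLinearMap) = r := fun g w hw => by
    rw [LinearEquiv.finrank_map_eq, finrank_kline hw, hrk]
  obtain ⟨e₀, he₀, he₀1⟩ : ∃ e, P e ∧ 1 ≤ e := by
    obtain ⟨g, hg, w, hw, hww, hne⟩ := hnot
    obtain ⟨x, hxU, hx0, hxx⟩ := hS.exists_iso_mem _ (hUrk g w hw)
      fun a ha b hb => hS.image_iso hg hww ha hb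
    refine ⟨_, ⟨g, w, x, hg, hw, hww, hx0, hxx, hne x hxx, rfl⟩, ?_⟩
    rw [Nat.one_le_iff_ne_zero, Ne, Submodule.finrank_eq_zero, ← Ne, Submodule.ne_bot_iff]
    exact ⟨x, ⟨hxU, self_mem_kline x⟩, hx0⟩
  have hPle : ∀ e, P e → e ≤ r := by
    rintro e ⟨g, w, y, -, -, -, hy, -, -, rfl⟩
    exact (Submodule.finrank_mono inf_le_right).trans_eq (by rw [finrank_kline hy, hrk])
  set dm := Nat.findGreatest P r with hdm
  have hdP : P dm := Nat.findGreatest_spec (hPle e₀ he₀) he₀
  have hd1 : 1 ≤ dm := he₀1.trans (Nat.le_findGreatest (hPle e₀ he₀) he₀)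
  have hmax : ∀ e, P e → e ≤ dm := fun e he => Nat.le_findGreatest (hPle e he) he
  -- a maximal pair that is not orthogonal
  obtain ⟨g, w, y, hg, hw, hww, hy, hyy, hne, hde, m₀, hm₀⟩ : ∃ (g : V ≃ₗ[F] V) (w y : V),
      g ∈ G ∧ w ≠ 0 ∧ h w w = 0 ∧ y ≠ 0 ∧ h y y = 0 ∧
      (kline F K w).map g.toLinearMap ≠ kline F K y ∧
      dm ≤ finrank F ((kline F K w).map g.toLinearMap ⊓ kline F K y : Submodule F V) ∧
      ∃ m : K, h (g⁻¹ (m • y)) w ≠ 0 := by
    obtain ⟨g, w, y, hg, hw, hww, hy, hyy, hne, hde⟩ := hdP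
    by_cases hor : ∃ m : K, h (g⁻¹ (m • y)) w ≠ 0
    · exact ⟨g, w, y, hg, hw, hww, hy, hyy, hne, hde.ge, hor⟩
    have hgood' := hgood.resolve_right fun hg' => hor (hg' g hg w y hw hww hy hyy hne)
    push Not at hor
    obtain ⟨d, hd, hd0⟩ := (Submodule.ne_bot_iff _).1
      (fun hb : (kline F K w).map g.toLinearMap ⊓ kline F K y = ⊥ => by
        rw [hb, finrank_bot] at hde; omega)
    obtain ⟨a, ha⟩ := mem_kline.1 hd.2
    have ha0 : a ≠ 0 := fun e => hd0 (by rw [← ha, e, zero_smul])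
    have hdd : h d d = 0 := hS.line_iso hyy hd.2 hd.2
    obtain ⟨_, ⟨u', hu', rfl⟩, huL⟩ := SetLike.not_le_iff_exists.1
      (fun hle : (kline F K w).map g.toLinearMap ≤ kline F K y => hne
        (Submodule.eq_of_le_of_finrank_le hle (by rw [hUrk g w hw, finrank_kline hy, hrk])))
    obtain ⟨b, rfl⟩ := mem_kline.1 hu'
    have hud : h (g (b • w)) d = 0 := by
      have hyu : h y (g (b • w)) = 0 := hS.fld.ext_trace fun m => by
        rw [← hS.smul_left, ← hS.iso _ (inv_mem hg), inv_apply_self, hS.smul_right, hor, mul_zero,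
          mul_zero]
      rw [← ha, hS.smul_right, hS.zero_swap hyu, mul_zero]
    obtain ⟨E, hE, hEfix, hEne⟩ := hS.exists_fix_move hgood' hdd hd0 hud
      (fun hm => huL (by
        obtain ⟨c, hc⟩ := mem_kline.1 hm
        exact mem_kline.2 ⟨c * a, by rw [mul_smul, ha]; exact hc⟩))
      (hS.image_iso hg hww (Submodule.mem_map_of_mem hu') (Submodule.mem_map_of_mem hu'))
    have hfix : ∀ l ∈ kline F K y, E l = l := by
      intro l hl
      obtain ⟨c, rfl⟩ := mem_kline.1 hl
      rw [show c • y = (c / a) • d by rw [← ha, smul_smul, div_mul_cancel₀ _ ha0]]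
      exact hEfix _
    have hg' : g⁻¹ * E * g ∈ G := mul_mem (mul_mem (inv_mem hg) hE) hg
    have hnz : tf (F := F) h ((g⁻¹ * E * g) (b • w)) (b • w) ≠ 0 := by
      rw [tf, ← hS.iso g hg]
      simp only [LinearEquiv.mul_apply, self_inv_apply]
      exact hEne
    refine ⟨g⁻¹ * E * g, w, w, hg', hw, hww, hw, hww, fun heq => hnz ?_, ?_, ?_⟩
    · have : (g⁻¹ * E * g) (b • w) ∈ kline F K w := heq ▸ Submodule.mem_map_of_mem hu'
      rw [tf, hS.line_iso hww this hu', map_zero]
    · rw [← hde, ← LinearEquiv.finrank_map_eq (g⁻¹ : V ≃ₗ[F] V)]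
      refine Submodule.finrank_mono ?_
      rintro _ ⟨x, ⟨⟨x', hx', rfl⟩, hxL⟩, rfl⟩
      have e : (g⁻¹ * E * g) x' = g⁻¹ (g x') := congrArg (g⁻¹ : V ≃ₗ[F] V) (hfix _ hxL)
      refine ⟨⟨x', hx', e⟩, ?_⟩
      show g⁻¹ (g x') ∈ kline F K w
      rw [inv_apply_self]
      exact hx'
    · by_contra hall
      push Not at hall
      apply hnz
      rw [tf, ← hS.iso _ (inv_mem hg'), inv_apply_self, hS.herm ((g⁻¹ * E * g)⁻¹ (b • w)),
        hS.smul_right, hall, mul_zero, zero_pow hS.fld.sqK.q_ne_zero, map_zero]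
  set U := (kline F K w).map g.toLinearMap with hU
  set L := kline F K y with hL
  let ιU : K →ₗ[F] V := g.toLinearMap ∘ₗ (LinearMap.toSpanSingleton K V w).restrictScalars F
  let ιL : K →ₗ[F] V := (LinearMap.toSpanSingleton K V y).restrictScalars F
  have hιU : ∀ k, ιU k = g (k • w) := fun k => rfl
  have hιL : ∀ k, ιL k = k • y := fun k => rfl
  let J : Submodule F K := L.comap ιU
  let D₀ : Submodule F K := U.comap ιL
  let Φ : K →ₗ[F] K :=
    (hl hS w).restrictScalars F ∘ₗ (g⁻¹ : V ≃ₗ[F] V).toLinearMap ∘ₗ ιL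
  have hΦ : ∀ m, Φ m = h (g⁻¹ (m • y)) w := fun m => rfl
  have hJdm : finrank F J = finrank F (U ⊓ L : Submodule F V) := by
    have e : J.map ιU = U ⊓ L := by
      ext x
      constructor
      · rintro ⟨k, hk, rfl⟩
        exact ⟨Submodule.mem_map_of_mem (mem_kline.2 ⟨k, rfl⟩), hk⟩
      · rintro ⟨⟨x', hx', rfl⟩, hxL⟩
        obtain ⟨k, rfl⟩ := mem_kline.1 hx'
        exact ⟨k, hxL, rfl⟩
    rw [← e]
    exact (Submodule.equivMapOfInjective _
      (fun a b hab => smul_left_injective K hw (g.injective hab)) J).finrank_eq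
  have hDdm : finrank F D₀ = finrank F (U ⊓ L : Submodule F V) := by
    have e : D₀.map ιL = U ⊓ L := by
      ext x
      constructor
      · rintro ⟨k, hk, rfl⟩
        exact ⟨hk, mem_kline.2 ⟨k, rfl⟩⟩
      · rintro ⟨hxU, hxL⟩
        obtain ⟨k, rfl⟩ := mem_kline.1 hxL
        exact ⟨k, hxU, rfl⟩
    rw [← e]
    exact (Submodule.equivMapOfInjective _ (smul_left_injective K hy) D₀).finrank_eq
  -- conjugated elations
  have hstab : ∀ c : K, c ^ q ^ r = -c → ∀ m, m ∉ D₀ → c * Φ m ∈ J → ∀ m', c * Φ m' ∈ J := by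
    intro c hc m hm hcm
    obtain ⟨a, ha, hax⟩ := (hS.mem_el hww hc).conj hg
    simp only [LinearMap.comp_apply, LinearEquiv.coe_coe] at hax
    have haL : ∀ k, a (k • y) = k • y + g ((c * Φ k) • w) := fun k => by
      rw [hax, el_apply, hΦ]
    have hfix : ∀ u ∈ U, a u = u := by
      rintro _ ⟨u', hu', rfl⟩
      show a (g u') = g u'
      rw [hax, inv_apply_self, el_apply, hS.line_iso hww hu' (self_mem_kline w), mul_zero,
        zero_smul, map_zero, add_zero]
    by_cases heq : L.map a.toLinearMap = L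
    · intro m'
      have h1 : a (m' • y) ∈ L := heq ▸ Submodule.mem_map_of_mem (mem_kline.2 ⟨m', rfl⟩)
      rw [haL] at h1
      exact (Submodule.add_mem_iff_right L (mem_kline.2 ⟨m', rfl⟩)).1 h1
    · exfalso
      have hax₀ : a (m • y) ∈ L := by
        rw [haL]
        exact L.add_mem (mem_kline.2 ⟨m, rfl⟩) hcm
      have hDle : U ⊓ L ⊔ (F ∙ a (m • y)) ≤ L.map a.toLinearMap ⊓ L := by
        refine sup_le (fun u hu => ⟨⟨u, hu.2, hfix u hu.1⟩, hu.2⟩) ?_
        rw [Submodule.span_singleton_le_iff_mem]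
        exact ⟨Submodule.mem_map_of_mem (mem_kline.2 ⟨m, rfl⟩), hax₀⟩
      have hlt : U ⊓ L < U ⊓ L ⊔ (F ∙ a (m • y)) := lt_of_le_of_ne le_sup_left fun e => hm (by
        have h3 : a (m • y) ∈ U ⊓ L :=
          e ▸ Submodule.mem_sup_right (Submodule.mem_span_singleton_self _)
        rw [haL] at h3
        exact (Submodule.add_mem_iff_left U (Submodule.mem_map_of_mem (mem_kline.2 ⟨_, rfl⟩))).1 h3.1)
      have : finrank F (L.map a.toLinearMap ⊓ L : Submodule F V) ≤ dm :=
        hmax _ ⟨a, y, y, ha, hy, hyy, hy, hyy, heq, rfl⟩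
      have h4 := Submodule.finrank_lt_finrank_of_lt hlt
      have h5 := Submodule.finrank_mono hDle
      omega
  have hJtop : J ≠ ⊤ := fun e => hne (Submodule.eq_of_le_of_finrank_le (by
    rintro _ ⟨x', hx', rfl⟩
    obtain ⟨k, rfl⟩ := mem_kline.1 hx'
    exact (e ▸ Submodule.mem_top : k ∈ J)) (by rw [hUrk g w hw, finrank_kline hy, hrk]))
  obtain ⟨ζ, hζ0, hζ⟩ := hS.fld.hF.exists_skew
  have hζs : ∀ {s : K}, s ^ q ^ r = s → (algebraMap F K ζ * s) ^ q ^ r = -(algebraMap F K ζ * s) :=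
    fun hs => by rw [mul_pow, hs, hS.fld.algebraMap_pow, hζ, map_neg, neg_mul]
  have hker : ∀ m, Φ m = 0 → m ∈ D₀ := by
    intro m hm
    by_contra hmD
    apply hJtop
    have hall : ∀ c : K, c ^ q ^ r = -c → c * Φ m₀ ∈ J := fun c hc =>
      hstab c hc m hmD (by rw [hm, mul_zero]; exact J.zero_mem) m₀
    refine Submodule.eq_top_iff'.2 fun k => ?_
    obtain ⟨a, b, t, -, ha, hb, hk⟩ := hS.fld.decomp (k / Φ m₀)
    have hk' : k = (a + algebraMap F K t * b) * Φ m₀ := by
      rw [← hk, div_mul_cancel₀ _ (show Φ m₀ ≠ 0 from hm₀)]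
    have hscal : ∀ s : K, s ^ q ^ r = s → s * Φ m₀ ∈ J := fun s hs => by
      have := J.smul_mem ζ⁻¹ (hall _ (hζs hs))
      rwa [mul_assoc, ← Algebra.smul_def, inv_smul_smul₀ hζ0] at this
    rw [hk', add_mul, mul_assoc, ← Algebra.smul_def]
    exact J.add_mem (hscal a ha) (J.smul_mem t (hscal b hb))
  have hdimJ : r ≤ finrank F (LinearMap.range Φ) + finrank F J := by
    have e1 := LinearMap.finrank_range_add_finrank_ker Φ
    have e2 : finrank F (LinearMap.ker Φ) ≤ finrank F D₀ :=
      Submodule.finrank_mono fun m hm => hker m (LinearMap.mem_ker.1 hm)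
    omega
  -- the value space and its annihilator
  obtain ⟨e, he⟩ : ∃ e, e = finrank F (LinearMap.range Φ) := ⟨_, rfl⟩
  let bΦ : Module.Basis (Fin e) F (LinearMap.range Φ) := Module.finBasisOfFinrankEq F _ he.symm
  let Θ : K →ₗ[F] (Fin e → F) := LinearMap.pi fun j =>
    (Algebra.trace F K) ∘ₗ LinearMap.mulRight F ((bΦ j : K) ^ q ^ r)
  have hΘ : ∀ k j, Θ k j = Algebra.trace F K (k * (bΦ j : K) ^ q ^ r) := fun k j => rfl
  have hΘsurj : LinearMap.range Θ = ⊤ := by
    by_contra hc
    obtain ⟨φ, hφ0, hφ⟩ := Submodule.exists_dual_map_eq_bot_of_lt_top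
      (lt_top_iff_ne_top.2 hc) inferInstance
    obtain ⟨co, hco⟩ : ∃ co : Fin e → F, ∀ x, φ x = ∑ j, x j * co j :=
      ⟨fun j => φ (Pi.single j 1), fun x => by
        conv_lhs => rw [pi_eq_sum_univ' x]
        simp [map_sum]⟩
    have hk : ∀ k, φ (Θ k) = 0 := fun k => by
      have : φ (Θ k) ∈ (LinearMap.range Θ).map φ := Submodule.mem_map_of_mem ⟨k, rfl⟩
      rwa [hφ, Submodule.mem_bot] at this
    have hz : ∑ j, algebraMap F K (co j) * (bΦ j : K) ^ q ^ r = 0 := hS.fld.ext_trace fun k => by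
      rw [mul_zero, map_zero, Finset.mul_sum, map_sum]
      have := hk k
      rw [hco] at this
      rw [← this]
      refine Finset.sum_congr rfl fun j _ => ?_
      rw [hΘ, mul_left_comm, hS.fld.trace_smul, mul_comm]
    have hz' : ∑ j, co j ^ q • bΦ j = 0 := by
      apply Subtype.ext
      have := congrArg (· ^ q ^ r) hz
      simp only [hS.fld.sqK.sum_pow, mul_pow, hS.fld.algebraMap_pow, hS.cj_cj,
        zero_pow hS.fld.sqK.q_ne_zero] at this
      rw [Submodule.coe_sum, ZeroMemClass.coe_zero, ← this]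
      exact Finset.sum_congr rfl fun j _ => by rw [Submodule.coe_smul, Algebra.smul_def]
    have hco0 : ∀ j, co j = 0 := fun j => by
      have := Fintype.linearIndependent_iff.1 bΦ.linearIndependent _ hz' j
      exact pow_eq_zero_iff hS.fld.hF.q_ne_zero |>.1 this
    exact hφ0 (LinearMap.ext fun x => by rw [hco]; simp [hco0])
  have hJle : J ≤ LinearMap.ker Θ := fun k hk => by
    refine LinearMap.mem_ker.2 (funext fun j => ?_)
    obtain ⟨m, hm⟩ := (bΦ j).2
    rw [hΘ, ← hm, hΦ, Pi.zero_apply, mul_comm, ← hS.herm, mul_comm, ← hS.smul_left]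
    rw [← hS.iso g hg, self_inv_apply,
      hS.line_iso hyy (show g (k • w) ∈ kline F K y from hk) (mem_kline.2 ⟨m, rfl⟩), map_zero]
  have hJker : J = LinearMap.ker Θ := by
    refine Submodule.eq_of_le_of_finrank_le hJle ?_
    have e1 := LinearMap.finrank_range_add_finrank_ker Θ
    rw [hΘsurj, finrank_top, Module.finrank_fin_fun] at e1
    omega
  have heJ : e + finrank F J = r := by
    have e1 := LinearMap.finrank_range_add_finrank_ker Θ
    rw [hΘsurj, finrank_top, Module.finrank_fin_fun] at e1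
    rw [hJker, ← hrk]
    exact e1
  have he0 : e ≠ 0 := fun e0 => by
    have : Φ m₀ ∈ LinearMap.range Φ := ⟨m₀, rfl⟩
    rw [Submodule.finrank_eq_zero.1 (he.symm.trans e0), Submodule.mem_bot] at this
    exact hm₀ this
  haveI : Nonempty (Fin e) := ⟨⟨0, Nat.pos_of_ne_zero he0⟩⟩
  -- the fixed multipliers into `J`
  let X : Submodule F K := Submodule.span F {s : K | s ^ q ^ r = s ∧ ∀ m, s * Φ m ∈ J}
  have hXJ : ∀ x ∈ X, ∀ m, x * Φ m ∈ J := by
    intro x hx m
    induction hx using Submodule.span_induction with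
    | mem s hs => exact hs.2 m
    | zero => rw [zero_mul]; exact J.zero_mem
    | add a b _ _ ha hb => rw [add_mul]; exact J.add_mem ha hb
    | smul t a _ ha => rw [smul_mul_assoc]; exact J.smul_mem t ha
  have hXdim : finrank F J ≤ finrank F X := by
    by_contra hlt
    push Not at hlt
    obtain ⟨s, hs, hind⟩ := exists_fixed_indep hS.fld (e + 1) X (by omega)
    let M : Fin (e + 1) → Matrix (Fin e) (Fin e) F := fun i => Matrix.of fun j k =>
      Algebra.trace F K (s i * (bΦ k : K) * (bΦ j : K) ^ q ^ r)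
    obtain ⟨x, hx0, hxf, v, hv0, hv⟩ := exists_singular hS.fld.hF M (fun i j k => by
      simp only [M, Matrix.of_apply]
      rw [← hS.fld.trace_pow, mul_pow, mul_pow, hs, hS.cj_cj]
      congr 1
      ring) (by simp)
    obtain ⟨σ, hσ⟩ : ∃ σ, σ = ∑ i, x i • s i := ⟨_, rfl⟩
    have hσf : σ ^ q ^ r = σ := by
      rw [hσ, hS.fld.sqK.sum_pow]
      exact Finset.sum_congr rfl fun i _ => by
        rw [Algebra.smul_def, mul_pow, hs, hS.fld.algebraMap_pow, hxf]
    obtain ⟨φ, hφ⟩ : ∃ φ : LinearMap.range Φ, φ = ∑ k, v k • bΦ k := ⟨_, rfl⟩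
    have hφ0 : (φ : K) ≠ 0 := fun e0 => hv0 (funext fun k =>
      Fintype.linearIndependent_iff.1 bΦ.linearIndependent v
        (by rw [← hφ]; exact Subtype.ext e0) k)
    have hσφ : σ * φ ∈ J := by
      rw [hJker, LinearMap.mem_ker]
      funext j
      have := congrFun hv j
      rw [Pi.zero_apply] at this ⊢
      rw [← this, hΘ, hφ, hσ, Submodule.coe_sum, Finset.mul_sum, Finset.sum_mul, map_sum]
      simp only [Matrix.mulVec, dotProduct, Matrix.sum_apply, Matrix.smul_apply, M, Matrix.of_apply,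
        smul_eq_mul, Finset.sum_mul]
      refine Finset.sum_congr rfl fun k _ => ?_
      rw [map_sum]
      refine Finset.sum_congr rfl fun i _ => ?_
      rw [Submodule.coe_smul, Algebra.smul_mul_assoc, Algebra.mul_smul_comm, smul_smul,
        Algebra.smul_mul_assoc, map_smul, smul_eq_mul]
      ring
    obtain ⟨m, hm⟩ := φ.2
    refine hx0 (hind x (Submodule.subset_span ⟨by rw [← hσ]; exact hσf, fun m' => ?_⟩))
    rw [← hσ]
    have hmD : m ∉ D₀ := fun hmD => hφ0 (by
      obtain ⟨u', hu', hu''⟩ := hmD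
      rw [← hm, hΦ]
      rw [show m • y = g u' from hu''.symm, inv_apply_self, hS.line_iso hww hu' (self_mem_kline w)])
    have := hstab _ (hζs hσf) m hmD (by
      rw [mul_assoc, ← Algebra.smul_def, hm]; exact J.smul_mem ζ hσφ) m'
    rw [mul_assoc, ← Algebra.smul_def] at this
    have h2 := J.smul_mem ζ⁻¹ this
    rwa [inv_smul_smul₀ hζ0] at h2
  -- the values form one line over `F`
  haveI := Subalgebra.isSimpleOrder_of_finrank_prime F K (hrk ▸ hS.fld.prime)
  let S : Subalgebra F K :=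
    { carrier := {t | ∀ k ∈ J, t * k ∈ J}
      mul_mem' := fun {s t} hs ht k hk => by rw [mul_assoc]; exact hs _ (ht k hk)
      one_mem' := fun k hk => by rwa [one_mul]
      add_mem' := fun {s t} hs ht k hk => by rw [add_mul]; exact J.add_mem (hs k hk) (ht k hk)
      zero_mem' := fun k hk => by rw [zero_mul]; exact J.zero_mem
      algebraMap_mem' := fun f k hk => by rw [← Algebra.smul_def]; exact J.smul_mem f hk }
  have hJ0 : J ≠ ⊥ := fun e => by
    rw [e, finrank_bot] at hJdm
    omega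
  have hSb : S = ⊥ := by
    refine (eq_bot_or_eq_top S).resolve_right fun ht => hJtop ?_
    obtain ⟨k, hk, hk0⟩ := (Submodule.ne_bot_iff J).1 hJ0
    refine Submodule.eq_top_iff'.2 fun t => ?_
    have h1 : t / k ∈ S := ht ▸ Algebra.mem_top
    have := h1 k hk
    rwa [div_mul_cancel₀ _ hk0] at this
  obtain ⟨φ₀, hφ₀⟩ : ∃ φ₀, φ₀ = Φ m₀ := ⟨_, rfl⟩
  have hφ₀0 : φ₀ ≠ 0 := hφ₀ ▸ hm₀
  have hXmap : X.map (LinearMap.mulRight F φ₀) = J := by
    refine Submodule.eq_of_le_of_finrank_le ?_ ?_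
    · rintro _ ⟨x, hx, rfl⟩
      show x * φ₀ ∈ J
      rw [hφ₀]
      exact hXJ x hx m₀
    · rw [← (Submodule.equivMapOfInjective _ (mul_left_injective₀ hφ₀0) X).finrank_eq]
      exact hXdim
  have hlam : ∀ m, ∃ l : F, Φ m = algebraMap F K l * φ₀ := by
    intro m
    have hm : Φ m / φ₀ ∈ S := by
      intro k hk
      rw [← hXmap] at hk
      obtain ⟨x, hx, rfl⟩ := hk
      show Φ m / φ₀ * (x * φ₀) ∈ J
      rw [show Φ m / φ₀ * (x * φ₀) = x * Φ m by field_simp]
      exact hXJ x hx m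
    rw [hSb, Algebra.mem_bot] at hm
    obtain ⟨l, hl⟩ := hm
    exact ⟨l, by rw [hl, div_mul_cancel₀ _ hφ₀0]⟩
  obtain ⟨s₀, hs₀f, hs₀0, hs₀J⟩ : ∃ s : K, s ^ q ^ r = s ∧ s ≠ 0 ∧ ∀ m, s * Φ m ∈ J := by
    by_contra hc
    push Not at hc
    apply hJ0
    rw [← hXmap, show X = ⊥ from Submodule.span_eq_bot.2 fun s hs => by
      by_contra h0
      obtain ⟨m, hm⟩ := hc s hs.1 h0
      exact hm (hs.2 m), Submodule.map_bot]
  obtain ⟨c, hc⟩ : ∃ c, c = algebraMap F K ζ * s₀ := ⟨_, rfl⟩
  have hc0 : c ≠ 0 := hc ▸ mul_ne_zero (by simpa using hζ0) hs₀0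
  have hcs : c ^ q ^ r = -c := hc ▸ hζs hs₀f
  obtain ⟨d, hd⟩ : ∃ d, d = g ((c * φ₀) • w) := ⟨_, rfl⟩
  have hd0 : d ≠ 0 := fun e => by
    rw [hd, LinearEquiv.map_eq_zero_iff, smul_eq_zero] at e
    exact e.elim (mul_ne_zero hc0 hφ₀0) hw
  have hdL : d ∈ L := by
    have := J.smul_mem ζ (hs₀J m₀)
    rw [Algebra.smul_def, ← mul_assoc, ← hc, ← hφ₀] at this
    rw [hd]
    exact this
  obtain ⟨A, hA⟩ : ∃ A : V →ₗ[F] V, ∀ x, A x = g (el hS w c (g⁻¹ x)) :=
    ⟨g.toLinearMap ∘ₗ el hS w c ∘ₗ (g⁻¹ : V ≃ₗ[F] V).toLinearMap, fun x => rfl⟩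
  have hskew : ∀ x z, tf (F := F) h (A x) z = - tf (F := F) h x (A z) := by
    intro x z
    rw [eq_neg_iff_add_eq_zero, hA, hA, tf, tf, ← hS.iso _ (inv_mem hg),
      ← hS.iso _ (inv_mem hg) x, inv_apply_self, inv_apply_self]
    exact hS.el_skew w hcs _ _
  obtain ⟨x₁, hx₁⟩ : ∃ x₁, tf (F := F) h d x₁ = -1 := by
    obtain ⟨p, hp, -⟩ := hS.exists_partner hd0
    obtain ⟨k, hk⟩ := Algebra.trace_surjective F K (-1)
    refine ⟨k ^ q ^ r • p, ?_⟩
    rw [tf, hS.smul_right, hp, hS.cj_cj, mul_one, hk]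
  have hline : ∀ l ∈ L, A l = tf (F := F) h l (A x₁) • d := by
    intro l hl
    obtain ⟨m, rfl⟩ := mem_kline.1 hl
    obtain ⟨lam, hlam'⟩ := hlam m
    have hs : A (m • y) = lam • d := by
      rw [hA, el_apply, ← hΦ, hlam', hd, mul_left_comm, ← Algebra.smul_def, smul_assoc, map_smul]
    have := hskew (m • y) x₁
    rw [hs, hS.tf_smul_left, hx₁] at this
    rw [hs]
    congr 1
    linear_combination -this
  refine ⟨⟨g, w, y, d, m₀ • y, A x₁, c, hg, hww, hyy, hy, hcs, hd0, hdL, mem_kline.2 ⟨m₀, rfl⟩,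
    ?_, ?_, fun l hl => by rw [← hA]; exact hline l hl⟩⟩
  · have h0 : A d = 0 := by
      rw [hA, hd, inv_apply_self, el_apply, hS.smul_left, hww, mul_zero, mul_zero, zero_smul,
        map_zero]
    have := hline d hdL
    rw [h0] at this
    exact (smul_eq_zero.1 this.symm).resolve_right hd0
  · have h2 := hline (m₀ • y) (mem_kline.2 ⟨m₀, rfl⟩)
    have h1 : A (m₀ • y) = d := by rw [hA, el_apply, ← hΦ, ← hφ₀, hd]
    rw [h1] at h2
    have h3 : (tf (F := F) h (m₀ • y) (A x₁) - 1) • d = 0 := by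
      rw [sub_smul, one_smul, ← h2, sub_self]
    exact sub_eq_zero.1 ((smul_eq_zero.1 h3).resolve_right hd0)

end Setup

end Cfsg.Agent.MaxSub.UnitExt
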