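import Cfsg.Agent.MaxSub.UnitExt.Max

/-!
Extension degree three over the field of four elements, three dimensions over the extension: an
element sending an isotropic line into the orthogonal space of another isotropic line, not onto it,
gives a transvection with isotropic centre.
-/

set_option autoImplicit false
set_option linter.style.haveILetI false
set_option linter.unusedSectionVars false

namespace Cfsg.Agent.MaxSub.UnitExt

open Module Cfsg.Agent.Classical.U Cfsg.Agent.MaxSub.ExtField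

universe u v w

variable {F : Type u} {K : Type v} {V : Type w} [Field F] [Field K] [Algebra F K] [AddCommGroup V]
  [Module F V] [Module K V] [IsScalarTower F K V] {q r : ℕ}

namespace Setup

variable {h : V → V → K} {G : Subgroup (V ≃ₗ[F] V)} (hS : Setup q r h G)

/-- The symmetric map of two vectors. -/
noncomputable def bmap₂ (a c : V) : V →ₗ[F] V := (fl hS a).smulRight c + (fl hS c).smulRight a

lemma bmap₂_apply (a c x : V) :
    bmap₂ hS a c x = tf (F := F) h x a • c + tf (F := F) h x c • a := rfl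

include hS

/-- In three dimensions the orthogonal space of an isotropic vector is spanned by it and any
anisotropic vector in it. -/
lemma perp_eq_of_three (hk : finrank K V = 3) {y u : V} (hy : h y y = 0) (hy0 : y ≠ 0)
    (hu : h u y = 0) (huy : u ∉ kline F K y) :
    h u u ≠ 0 ∧ ∀ x, h x y = 0 → ∃ a b : K, x = a • y + b • u := by
  classical
  haveI := hS.fdV
  obtain ⟨f, hf, hyf, hfy⟩ := hS.exists_iso_partner hy hy0
  obtain ⟨v, hv, hvy, hvf⟩ := hS.exists_perp_hyp (by omega) hy hf hyf hfy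
  have hdec : ∀ x, h x y = 0 → ∃ a b : K, x = a • y + b • v := by
    let N : Submodule K V := LinearMap.ker (hl hS y)
    have hsurj : LinearMap.range (hl hS y) = ⊤ := LinearMap.range_eq_top.2 fun k => ⟨k • f, by
      rw [hl_apply, hS.smul_left, hfy, mul_one]⟩
    have e1 := LinearMap.finrank_range_add_finrank_ker (hl hS y)
    rw [hsurj, finrank_top, Module.finrank_self, hk] at e1
    have hli : LinearIndependent K ![y, v] := by
      refine LinearIndependent.pair_iff.2 fun a b hab => ?_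
      have hb : b = 0 := by
        have := congrArg (fun x => h x v) hab
        simp only [hS.add_left, hS.smul_left, hS.zero_left, hS.zero_swap hvy, mul_zero,
          zero_add] at this
        exact (mul_eq_zero.1 this).resolve_right hv
      rw [hb, zero_smul, add_zero, smul_eq_zero] at hab
      exact ⟨hab.resolve_right hy0, hb⟩
    have hspan : Submodule.span K (Set.range ![y, v]) = N := by
      refine Submodule.eq_of_le_of_finrank_le (Submodule.span_le.2 ?_) ?_
      · rintro _ ⟨i, rfl⟩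
        fin_cases i
        · simpa [N, hl_apply] using hy
        · simpa [N, hl_apply] using hvy
      · rw [finrank_span_eq_card hli, Fintype.card_fin]
        show finrank K (LinearMap.ker (hl hS y)) ≤ 2
        omega
    intro x hx
    have hxN : x ∈ Submodule.span K (Set.range ![y, v]) := by
      rw [hspan]; exact LinearMap.mem_ker.2 hx
    rw [Matrix.range_cons, Matrix.range_cons, Matrix.range_empty] at hxN
    simp only [Set.union_empty, Set.union_singleton] at hxN
    obtain ⟨a, b, hab⟩ := Submodule.mem_span_pair.1 (by rwa [Set.pair_comm] at hxN)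
    exact ⟨a, b, hab.symm⟩
  obtain ⟨a, b, rfl⟩ := hdec u hu
  have hb : b ≠ 0 := fun e => huy (by
    rw [e, zero_smul, add_zero]
    exact mem_kline.2 ⟨a, rfl⟩)
  refine ⟨?_, fun x hx => ?_⟩
  · rw [hS.add_left, hS.add_right, hS.add_right, hS.smul_left, hS.smul_left, hS.smul_left,
      hS.smul_left, hS.smul_right, hS.smul_right, hS.smul_right, hS.smul_right, hy, hvy,
      hS.zero_swap hvy]
    simp [hb, hv, hS.fld.sqK.q_ne_zero]
  · obtain ⟨a', b', rfl⟩ := hdec x hx
    refine ⟨a' - b' / b * a, b' / b, ?_⟩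
    rw [smul_add, smul_smul, smul_smul, div_mul_cancel₀ _ hb, ← add_assoc, ← add_smul,
      sub_add_cancel]

/-- A translation fixing `y`. -/
lemma exists_translation {y u : V} (hy : h y y = 0) (huy : h u y = 0) (hu : h u u ≠ 0) {ω : F}
    (hω : ω ^ 3 = 1) (hω1 : ω ≠ 1) (hωq : ω * ω ^ q = 1) (ε : K) :
    ∃ E ∈ G, (∀ b : K, E (b • y) = b • y) ∧ E u = u + ε • y ∧
      ∀ x, ∃ a b : K, E x = x + (a • y + b • u) := by
  obtain ⟨μ, hμ⟩ : ∃ μ, μ = algebraMap F K ω := ⟨_, rfl⟩
  have hμ3 : μ ^ 3 = 1 := by rw [hμ, ← map_pow, hω, map_one]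
  have hμμ : μ * μ ^ q ^ r = 1 := by rw [hμ, hS.fld.algebraMap_pow, ← map_mul, hωq, map_one]
  have hμ1 : μ ≠ 1 := fun e => hω1 ((algebraMap F K).injective (by rw [← hμ, e, map_one]))
  have hμ0 : μ ≠ 0 := left_ne_zero_of_mul_eq_one hμμ
  obtain ⟨α, hα⟩ : ∃ α, α = ε / (μ ^ 2 * (μ - 1)) := ⟨_, rfl⟩
  obtain ⟨v, hv⟩ : ∃ v, v = u + α • y := ⟨_, rfl⟩
  have hvy : h v y = 0 := by rw [hv, hS.add_left, hS.smul_left, huy, hy, mul_zero, add_zero]
  have huv : h u v = h u u := by
    rw [hv, hS.add_right, hS.smul_right, huy, mul_zero, add_zero]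
  have hvv : h v v = h u u := by
    rw [hv, hS.add_left, hS.smul_left, hS.add_right, hS.smul_right, huy, hS.add_right,
      hS.smul_right, hy, hS.zero_swap huy]
    ring
  have hcirc : ∀ (n : ℕ) (δ : K), δ ≠ 0 → δ ^ q ^ r = δ →
      (μ ^ n - 1) / δ + ((μ ^ n - 1) / δ) ^ q ^ r +
        (μ ^ n - 1) / δ * ((μ ^ n - 1) / δ) ^ q ^ r * δ = 0 := by
    intro n δ hδ hδq
    have e : μ ^ n * (μ ^ n) ^ q ^ r = 1 := by
      rw [← pow_mul, mul_comm n, pow_mul, ← mul_pow, hμμ, one_pow]
    rw [div_pow, hS.fld.sqK.sub_pow, one_pow, hδq]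
    field_simp
    linear_combination e
  obtain ⟨s₁, hs₁, hd₁, hx₁⟩ := hS.exists_href v ((μ ^ 1 - 1) / h u u)
    (by rw [hvv]; exact hcirc 1 _ hu (hS.self_fixed u))
  obtain ⟨s₂, hs₂, hd₂, hx₂⟩ := hS.exists_href u ((μ ^ 2 - 1) / h u u)
    (hcirc 2 _ hu (hS.self_fixed u))
  rw [hvv, div_mul_cancel₀ _ hu] at hd₁
  rw [div_mul_cancel₀ _ hu] at hd₂
  obtain ⟨s, hsdef⟩ : ∃ s : V ≃ₗ[K] V, s = s₁ * s₂ := ⟨_, rfl⟩
  have hsx : ∀ x, s x = s₁ (s₂ x) := fun x => by rw [hsdef]; rfl
  have hmem : s.restrictScalars F ∈ G := by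
    refine hS.lin s (fun a b => by rw [hsx, hsx, hs₁, hs₂]) ?_
    rw [hsdef, map_mul, Units.val_mul, hd₁, hd₂, add_sub_cancel, add_sub_cancel, ← pow_add, hμ3,
      map_one]
  refine ⟨_, hmem, fun b => ?_, ?_, fun x => ?_⟩
  · rw [LinearEquiv.restrictScalars_apply, hsx, hx₂, hS.smul_left, hS.zero_swap huy, mul_zero,
      mul_zero, zero_smul, add_zero, hx₁, hS.smul_left, hS.zero_swap hvy, mul_zero, mul_zero,
      zero_smul, add_zero]
  · rw [LinearEquiv.restrictScalars_apply, hsx, hx₂, div_mul_cancel₀ _ hu]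
    rw [show u + (μ ^ 2 - 1) • u = μ ^ 2 • u by module, map_smul, hx₁, huv, div_mul_cancel₀ _ hu,
      hv]
    have e : μ ^ 2 * (μ - 1) * α = ε := by
      rw [hα, mul_div_cancel₀ _ (mul_ne_zero (pow_ne_zero _ hμ0) (sub_ne_zero.2 hμ1))]
    rw [← e]
    have h3 : μ ^ 2 • u + (μ ^ 2 * (μ ^ 1 - 1)) • u = u := by
      rw [← add_smul, show μ ^ 2 + μ ^ 2 * (μ ^ 1 - 1) = 1 by linear_combination hμ3, one_smul]
    nth_rewrite 3 [← h3]
    module
  · refine ⟨(μ ^ 1 - 1) / h u u * h (s₂ x) v * α, (μ ^ 1 - 1) / h u u * h (s₂ x) v +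
      (μ ^ 2 - 1) / h u u * h x u, ?_⟩
    rw [LinearEquiv.restrictScalars_apply, hsx, hx₁, hv]
    nth_rewrite 1 [hx₂]
    module

/-- A transvection from an orthogonal pair. -/
lemma ctr_of_orth_three (hq : q = 2) (hr : r = 3) (hk : finrank K V = 3) {g : V ≃ₗ[F] V}
    (hg : g ∈ G) {w y : V} (hw : w ≠ 0) (hww : h w w = 0) (hy : y ≠ 0) (hyy : h y y = 0)
    (hne : (kline F K w).map g.toLinearMap ≠ kline F K y)
    (hor : ∀ m : K, h (g⁻¹ (m • y)) w = 0) : ∃ d, h d d = 0 ∧ d ≠ 0 ∧ Ctr hS d := by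
  classical
  subst hq hr
  haveI := hS.fdV
  haveI := hS.fld.fd
  haveI : FiniteDimensional F V := Module.Finite.trans K V
  haveI := hS.fld.finite_F
  haveI := Fintype.ofFinite F
  have hF := hS.fld.hF
  have hch2 : (2 : F) = 0 := by
    by_contra h2
    have h4 : Nat.card F = 4 := hF.2
    rw [Nat.card_eq_fintype_card] at h4
    have hcast := Nat.cast_card_eq_zero F
    rw [h4] at hcast
    push_cast at hcast
    exact h2 (mul_self_eq_zero.1 (by linear_combination hcast))
  have hch2K : (2 : K) = 0 := by rw [← map_ofNat (algebraMap F K) 2, hch2, map_zero]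
  have hnegF : ∀ t : F, -t = t := fun t => by linear_combination -t * hch2
  have hnegK : ∀ t : K, -t = t := fun t => by linear_combination -t * hch2K
  have hnegV : ∀ x : V, -x = x := fun x => by rw [← neg_one_smul F, hnegF, one_smul]
  have htwoV : ∀ x : V, x + x = 0 := fun x => by
    nth_rewrite 1 [← hnegV x]; exact neg_add_cancel x
  obtain ⟨ω, hω⟩ := hF.exists_trace (c := (1 : F)) (one_pow 2)
  have hω3 : ω ^ 3 = 1 := by linear_combination (ω - 1) * hω + (ω - 1) * hch2
  have hω1 : ω ≠ 1 := fun e => by rw [e, one_pow] at hω; exact one_ne_zero (by linear_combination hω)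
  set L := kline F K y with hL
  set U := (kline F K w).map g.toLinearMap with hU
  have hUy : ∀ u ∈ U, h u y = 0 := by
    rintro _ ⟨u', hu', rfl⟩
    obtain ⟨b, rfl⟩ := mem_kline.1 hu'
    refine hS.zero_swap (hS.fld.ext_trace fun m => ?_)
    rw [← hS.smul_left, ← hS.iso _ (inv_mem hg)]
    simp only [LinearEquiv.coe_coe, inv_apply_self, hS.smul_right, hor, mul_zero, map_zero]
  obtain ⟨u, huU, huL⟩ := SetLike.not_le_iff_exists.1 (fun hle : U ≤ L => hne
    (Submodule.eq_of_le_of_finrank_le hle (by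
      rw [hU, hL, LinearEquiv.finrank_map_eq, finrank_kline hw, finrank_kline hy])))
  obtain ⟨hδ, hdec⟩ := hS.perp_eq_of_three hk hyy hy (hUy u huU) huL
  have hUU : ∀ a ∈ U, ∀ b ∈ U, tf (F := F) h a b = 0 :=
    fun a ha b hb => hS.image_iso hg hww ha hb
  have huy : h u y = 0 := hUy u huU
  obtain ⟨δ, hδdef⟩ : ∃ δ, δ = h u u := ⟨_, rfl⟩
  have hTδ : Algebra.trace F K δ = 0 := hδdef ▸ hUU u huU u huU
  have hLu : ∀ l ∈ L, h l u = 0 := fun l hl => by
    obtain ⟨a, rfl⟩ := mem_kline.1 hl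
    rw [hS.smul_left, hS.zero_swap huy, mul_zero]
  -- `U` lies in `L + F u`
  have hUP : ∀ x ∈ U, ∃ l ∈ L, ∃ t : F, x = l + t • u := by
    intro x hx
    obtain ⟨a, k, rfl⟩ := hdec x (hUy x hx)
    suffices hkF : ∃ t : F, algebraMap F K t = k by
      obtain ⟨t, rfl⟩ := hkF
      exact ⟨a • y, mem_kline.2 ⟨a, rfl⟩, t, by rw [algebraMap_smul]⟩
    have hxu : Algebra.trace F K (k * δ) = 0 := by
      have := hUU _ hx u huU
      rwa [tf, hS.add_left, hS.smul_left, hS.smul_left, hS.zero_swap huy, mul_zero, zero_add,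
        ← hδdef] at this
    have hux : Algebra.trace F K (k ^ 2 ^ 3 * δ) = 0 := by
      have := hUU u huU _ hx
      rwa [tf, hS.add_right, hS.smul_right, hS.smul_right, huy, mul_zero, zero_add,
        ← hδdef] at this
    have hxx : Algebra.trace F K (k * (k ^ 2 ^ 3 * δ)) = 0 := by
      have := hUU _ hx _ hx
      simpa [tf, hS.add_left, hS.smul_left, hS.add_right, hS.smul_right, hyy, huy,
        hS.zero_swap huy, ← hδdef] using this
    by_contra hkF
    push Not at hkF
    let W : Submodule F K := LinearMap.ker ((Algebra.trace F K) ∘ₗ LinearMap.mulRight F δ)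
    have hWk : ∀ z, z ∈ W ↔ Algebra.trace F K (z * δ) = 0 := fun z => LinearMap.mem_ker
    obtain ⟨x₀, hx₀⟩ := hS.fld.exists_trace_ne (hδdef ▸ hδ : δ ≠ 0)
    have hWne : W ≠ ⊤ := fun e => hx₀ ((hWk x₀).1 (e ▸ Submodule.mem_top))
    have hli : LinearIndependent F ![(1 : K), k] := by
      refine LinearIndependent.pair_iff.2 fun a b hab => ?_
      have hb : b = 0 := by
        by_contra hb
        refine hkF (-a / b) ?_
        rw [Algebra.smul_def, Algebra.smul_def, mul_one] at hab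
        rw [map_div₀, map_neg, div_eq_iff (by simpa using hb)]
        linear_combination -hab
      rw [hb, zero_smul, add_zero, smul_eq_zero] at hab
      exact ⟨hab.resolve_right one_ne_zero, hb⟩
    have hsW : Submodule.span F (Set.range ![(1 : K), k]) = W := by
      refine Submodule.eq_of_le_of_finrank_le (Submodule.span_le.2 ?_) ?_
      · rintro _ ⟨i, rfl⟩
        fin_cases i
        · simpa [hWk] using hTδ
        · simpa [hWk] using hxu
      · rw [finrank_span_eq_card hli, Fintype.card_fin]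
        have := Submodule.finrank_lt hWne
        rw [hS.fld.rk] at this
        omega
    obtain ⟨t, ht⟩ : ∃ t, t = Algebra.trace F K (x₀ * (k ^ 2 ^ 3 * δ)) /
        Algebra.trace F K (x₀ * δ) := ⟨_, rfl⟩
    have hprop : ∀ z, Algebra.trace F K (z * (k ^ 2 ^ 3 * δ)) =
        t * Algebra.trace F K (z * δ) := by
      intro z
      obtain ⟨c, hc⟩ : ∃ c, c = Algebra.trace F K (z * δ) / Algebra.trace F K (x₀ * δ) := ⟨_, rfl⟩
      have hzW : z - c • x₀ ∈ Submodule.span F (Set.range ![(1 : K), k]) := by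
        rw [hsW, hWk, sub_mul, map_sub, Algebra.smul_mul_assoc, map_smul, smul_eq_mul, hc,
          div_mul_cancel₀ _ hx₀, sub_self]
      let φ₂ : K →ₗ[F] F := (Algebra.trace F K) ∘ₗ LinearMap.mulRight F (k ^ 2 ^ 3 * δ)
      have h0 : Submodule.span F (Set.range ![(1 : K), k]) ≤ LinearMap.ker φ₂ := by
        refine Submodule.span_le.2 ?_
        rintro _ ⟨i, rfl⟩
        fin_cases i
        · simpa [φ₂] using hux
        · simpa [φ₂, mul_assoc] using hxx
      have e : φ₂ (z - c • x₀) = 0 := LinearMap.mem_ker.1 (h0 hzW)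
      rw [map_sub, map_smul, sub_eq_zero, smul_eq_mul] at e
      show φ₂ z = _
      rw [e, hc, ht]
      show _ * Algebra.trace F K (x₀ * (k ^ 2 ^ 3 * δ)) = _
      ring
    have hkt : k ^ 2 ^ 3 = algebraMap F K t := mul_right_cancel₀ (hδdef ▸ hδ : δ ≠ 0)
      (hS.fld.ext_trace fun z => by
        rw [hprop, mul_left_comm, hS.fld.trace_smul])
    exact hkF (t ^ 2) (by rw [← hS.fld.algebraMap_pow, ← hkt, hS.cj_cj])
  -- the conjugate of an elation
  obtain ⟨A, hA⟩ : ∃ A : V →ₗ[F] V, ∀ x, A x = g (el hS w 1 (g⁻¹ x)) :=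
    ⟨g.toLinearMap ∘ₗ el hS w 1 ∘ₗ (g⁻¹ : V ≃ₗ[F] V).toLinearMap, fun x => rfl⟩
  have h1 : (1 : K) ^ 2 ^ 3 = -1 := by rw [one_pow, hnegK]
  have hAmem : Mem G A := ((hS.mem_el hww h1).conj hg).congr fun x => (hA x).symm
  have hskew : ∀ x z, tf (F := F) h (A x) z = tf (F := F) h x (A z) := by
    intro x z
    rw [← hnegF (tf (F := F) h x (A z)), eq_neg_iff_add_eq_zero, hA, hA, tf, tf,
      ← hS.iso _ (inv_mem hg), ← hS.iso _ (inv_mem hg) x, inv_apply_self, inv_apply_self]
    exact hS.el_skew w h1 _ _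
  have hAU : ∀ x, A x ∈ U := fun x => by
    rw [hA, el_apply]; exact Submodule.mem_map_of_mem (mem_kline.2 ⟨_, rfl⟩)
  have hAU0 : ∀ x ∈ U, A x = 0 := by
    rintro _ ⟨x', hx', rfl⟩
    rw [LinearEquiv.coe_coe, hA, inv_apply_self, el_apply,
      hS.line_iso hww hx' (self_mem_kline w), mul_zero, zero_smul, map_zero]
  have hAL : ∀ x ∈ L, A x = 0 := fun x hx => by
    obtain ⟨a, rfl⟩ := mem_kline.1 hx
    rw [hA, el_apply, hor, mul_zero, zero_smul, map_zero]
  obtain ⟨k₁, hk₁⟩ := Algebra.trace_surjective F K 1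
  obtain ⟨z, hz⟩ : ∃ z, z = (k₁ / δ) ^ 2 ^ 3 • u := ⟨_, rfl⟩
  have huz : tf (F := F) h u z = 1 := by
    rw [hz, tf, hS.smul_right, hS.cj_cj, ← hδdef, div_mul_cancel₀ _ (hδdef ▸ hδ : δ ≠ 0), hk₁]
  have hLz : ∀ l ∈ L, tf (F := F) h l z = 0 := fun l hl => by
    rw [hz, tf, hS.smul_right, hLu l hl, mul_zero, map_zero]
  have hdecA : ∀ x, A x - tf (F := F) h x (A z) • u ∈ L := by
    intro x
    obtain ⟨l, hl, t, e⟩ := hUP _ (hAU x)
    have ht : tf (F := F) h (A x) z = t := by
      rw [e, hS.tf_add_left, hLz l hl, hS.tf_smul_left, huz, zero_add, mul_one]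
    rw [← hskew, ht, e, add_sub_cancel_right]
    exact hl
  obtain ⟨τ, hτ⟩ : ∃ τ, τ = tf (F := F) h (A z) z := ⟨_, rfl⟩
  have hτq : τ ^ 2 = τ := by rw [hτ, ← hS.tf_swap, hskew]
  obtain ⟨l, hl⟩ : ∃ l, l = A z - τ • u := ⟨_, rfl⟩
  have hlL : l ∈ L := by
    rw [hl, hτ, hskew]; exact hdecA z
  have hAz : A z = l + τ • u := by rw [hl, sub_add_cancel]
  let A₀ : V →ₗ[F] V := A - bmap₂ hS u l - τ • tau hS u
  have hA₀ : ∀ x, A₀ x = A x - (tf (F := F) h x u • l + tf (F := F) h x l • u) -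
      τ • tf (F := F) h x u • u := fun x => rfl
  have hA₀L : ∀ x, A₀ x ∈ L := by
    intro x
    have e := hdecA x
    rw [hAz, hS.tf_add_right, hS.tf_smul_right, hτq] at e
    rw [hA₀]
    have := Submodule.sub_mem L e (L.smul_mem (tf (F := F) h x u) hlL)
    convert this using 1
    module
  have hskew₀ : ∀ x x', tf (F := F) h (A₀ x) x' = tf (F := F) h x (A₀ x') := by
    intro x x'
    simp only [hA₀, sub_eq_add_neg, hnegV, hS.tf_add_left, hS.tf_add_right, hS.tf_smul_left,
      hS.tf_smul_right, hskew, mul_pow, hτq, ← hS.tf_swap]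
    ring
  have hA₀perp : ∀ x, h x y = 0 → A₀ x = 0 := by
    intro x hx
    refine hS.nondeg _ fun x' => hS.fld.ext_trace fun c => ?_
    rw [mul_zero, map_zero, ← hS.smul_left]
    obtain ⟨a, ha⟩ := mem_kline.1 (hA₀L (c • x'))
    have e : tf (F := F) h x (A₀ (c • x')) = 0 := by
      rw [tf, ← ha, hS.smul_right, hx, mul_zero, map_zero]
    rw [← hskew₀] at e
    have e' : tf (F := F) h (c • x') (A₀ x) = 0 := by
      rw [hS.tf_swap, e, zero_pow (by norm_num)]
    exact e'
  -- vectors killed by everything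
  have hPz : ∀ a ∈ L, ∀ b ∈ L, tf (F := F) h a b = 0 ∧ tf (F := F) h a u = 0 ∧
      tf (F := F) h u a = 0 := fun a ha b hb =>
    ⟨by rw [tf, hS.line_iso hyy ha hb, map_zero], by rw [tf, hLu a ha, map_zero],
      by rw [tf, hS.zero_swap (hLu a ha), map_zero]⟩
  have huu : tf (F := F) h u u = 0 := hUU u huU u huU
  let D : K → (V →ₗ[F] V) := fun ε =>
    bmap₂ hS (ε • y) l + τ • (bmap₂ hS u (ε • y) + tau hS (ε • y))
  have hD : ∀ ε, Mem G (D ε) := by
    intro ε
    obtain ⟨E, hE, hEy, hEu, hEx⟩ := hS.exists_translation hyy huy hδ hω3 hω1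
      (by rw [← hω3]; ring) ε
    obtain ⟨C, hC⟩ : ∃ C : V →ₗ[F] V, ∀ x, C x = E (A (E⁻¹ x)) :=
      ⟨E.toLinearMap ∘ₗ A ∘ₗ (E⁻¹ : V ≃ₗ[F] V).toLinearMap, fun x => rfl⟩
    have hCmem : Mem G C := (hAmem.conj hE).congr fun x => (hC x).symm
    obtain ⟨m, hm⟩ := mem_kline.1 hlL
    have hEl : E l = l := by rw [← hm]; exact hEy m
    have htfE : ∀ x v, tf (F := F) h (E⁻¹ x) v = tf (F := F) h x (E v) := fun x v => by
      rw [tf, ← hS.iso E hE, self_inv_apply]; rfl
    have hCx : ∀ x, C x = A₀ x + (tf (F := F) h x (u + ε • y) • l +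
        tf (F := F) h x l • (u + ε • y)) + τ • tf (F := F) h x (u + ε • y) • (u + ε • y) := by
      intro x
      obtain ⟨a, b, hab⟩ := hEx (E⁻¹ x)
      rw [self_inv_apply] at hab
      have e0 : A₀ (E⁻¹ x) = A₀ x := by
        conv_rhs => rw [hab, map_add, hA₀perp (a • y + b • u) (by
          rw [hS.add_left, hS.smul_left, hS.smul_left, hyy, huy, mul_zero, mul_zero, add_zero]),
          add_zero]
      have eA : A (E⁻¹ x) = A₀ (E⁻¹ x) + (tf (F := F) h (E⁻¹ x) u • l +
          tf (F := F) h (E⁻¹ x) l • u) + τ • tf (F := F) h (E⁻¹ x) u • u := by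
        rw [hA₀]; module
      obtain ⟨a', ha'⟩ := mem_kline.1 (hA₀L x)
      rw [hC, eA, e0, map_add, map_add, map_add, map_smul, map_smul, map_smul, map_smul, htfE,
        htfE, hEu, hEl, ← ha', hEy]
    have hAC : ∀ x, A (C x) = 0 := fun x => by
      have he : ε • y ∈ L := mem_kline.2 ⟨ε, rfl⟩
      simp only [hCx, map_add, map_smul, hAL _ (hA₀L x), hAL l hlL, hAU0 u huU, hAL _ he,
        add_zero, smul_zero]
    refine (hAmem.add hCmem hAC).congr fun x => ?_
    rw [LinearMap.add_apply, hCx]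
    show _ = (tf (F := F) h x (ε • y) • l + tf (F := F) h x l • ε • y) +
      τ • ((tf (F := F) h x u • (ε • y) + tf (F := F) h x (ε • y) • u) +
        tf (F := F) h x (ε • y) • (ε • y))
    have eA : A x = A₀ x + (tf (F := F) h x u • l + tf (F := F) h x l • u) +
        τ • tf (F := F) h x u • u := by
      rw [hA₀]; module
    rw [eA, hS.tf_add_right]
    linear_combination (norm := module) htwoV (A₀ x + tf (F := F) h x u • l +
      tf (F := F) h x l • u + τ • tf (F := F) h x u • u)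
  -- a rank-two map on the line
  obtain ⟨a, haL, ha0, hmem⟩ : ∃ a ∈ L, a ≠ 0 ∧ Mem G (bmap₂ hS a (ω • a)) := by
    rcases eq_or_ne τ 0 with hτ0 | hτ0
    · have hl0 : l ≠ 0 := fun hl0 => by
        obtain ⟨p, -, hp⟩ := hS.exists_partner hw
        obtain ⟨_, hu', rfl⟩ := huU
        obtain ⟨k, rfl⟩ := mem_kline.1 hu'
        obtain ⟨x, hx⟩ : ∃ x, x = g (k • p) := ⟨_, rfl⟩
        have hAx : A x = g (k • w) := by
          rw [hx, hA, inv_apply_self, el_apply, hS.smul_left, hp, mul_one, one_mul]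
        have := hA₀L x
        rw [hA₀, hl0, hτ0, smul_zero, zero_smul, sub_zero, zero_add, tf, hS.zero_right, map_zero,
          zero_smul, sub_zero, hAx] at this
        exact huL this
      obtain ⟨m, hm⟩ := mem_kline.1 hlL
      refine ⟨l, hlL, hl0, (hD (algebraMap F K ω * m)).congr fun x => ?_⟩
      simp only [D, hτ0, zero_smul, add_zero]
      rw [mul_smul, hm, algebraMap_smul]
      show tf (F := F) h x (ω • l) • l + tf (F := F) h x l • ω • l =
        tf (F := F) h x l • ω • l + tf (F := F) h x (ω • l) • l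
      rw [add_comm]
    · have hτ1 : τ = 1 := mul_left_cancel₀ hτ0 (by rw [mul_one, ← pow_two, hτq])
      have hkillD : ∀ ε, ∀ v ∈ L, D ε v = 0 := fun ε v hv => by
        have he : ε • y ∈ L := mem_kline.2 ⟨ε, rfl⟩
        show (tf (F := F) h v (ε • y) • l + tf (F := F) h v l • ε • y) +
          τ • ((tf (F := F) h v u • (ε • y) + tf (F := F) h v (ε • y) • u) +
            tf (F := F) h v (ε • y) • (ε • y)) = 0
        simp [(hPz v hv _ he).1, (hPz v hv _ hlL).1, (hPz v hv _ hlL).2.1]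
      have hDu : ∀ ε, D ε u = 0 := fun ε => by
        have he : ε • y ∈ L := mem_kline.2 ⟨ε, rfl⟩
        show (tf (F := F) h u (ε • y) • l + tf (F := F) h u l • ε • y) +
          τ • ((tf (F := F) h u u • (ε • y) + tf (F := F) h u (ε • y) • u) +
            tf (F := F) h u (ε • y) • (ε • y)) = 0
        simp [(hPz _ he _ he).2.2, (hPz _ hlL _ hlL).2.2, huu]
      have hDD : ∀ ε ε' x, D ε (D ε' x) = 0 := fun ε ε' x => by
        have he : ε' • y ∈ L := mem_kline.2 ⟨ε', rfl⟩
        show D ε ((tf (F := F) h x (ε' • y) • l + tf (F := F) h x l • ε' • y) +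
          τ • ((tf (F := F) h x u • (ε' • y) + tf (F := F) h x (ε' • y) • u) +
            tf (F := F) h x (ε' • y) • (ε' • y))) = 0
        simp only [map_add, map_smul, hkillD ε _ hlL, hkillD ε _ he, hDu, add_zero, smul_zero]
      have hsum := ((hD 1).add (hD (algebraMap F K ω)) (hDD _ _)).add
        (hD (1 + algebraMap F K ω)) fun x => by
          rw [LinearMap.add_apply, hDD, hDD, add_zero]
      refine ⟨y, self_mem_kline y, hy, hsum.congr fun x => ?_⟩
      simp only [D, hτ1, one_smul, LinearMap.add_apply, algebraMap_smul, add_smul, one_smul]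
      show _ = tf (F := F) h x y • ω • y + tf (F := F) h x (ω • y) • y
      simp only [bmap₂_apply, tau_apply, hS.tf_add_right, hS.tf_smul_right]
      linear_combination (norm := module) htwoV (tf (F := F) h x y • l +
        (ω ^ 2 * tf (F := F) h x y) • l + tf (F := F) h x l • y + tf (F := F) h x l • ω • y +
        tf (F := F) h x u • y + tf (F := F) h x u • ω • y + tf (F := F) h x y • u +
        (ω ^ 2 * tf (F := F) h x y) • u + tf (F := F) h x y • y +
        (ω ^ 2 * tf (F := F) h x y) • ω • y)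
  refine ⟨a, hS.line_iso hyy haL haL, ha0, fun s hs => ?_⟩
  rw [hnegF] at hs
  rcases eq_or_ne s 0 with rfl | hs0
  · exact mem_zero.congr fun x => by simp
  have hs1 : s = 1 := mul_left_cancel₀ hs0 (by rw [mul_one, ← pow_two, hs])
  subst hs1
  refine hmem.congr fun x => ?_
  rw [bmap₂_apply, one_smul, tau_apply, hS.tf_smul_right, smul_smul, ← add_smul]
  congr 1
  linear_combination (tf (F := F) h x a) * hω

end Setup

end Cfsg.Agent.MaxSub.UnitExt
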